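import Mathlib
import Cfsg.Agent.Lib.Lead.HKK.AutDefs

/-!
# Ladder ALP, rung A1: an automorphism has at most as many fixed points on a quotient
-/

set_option autoImplicit false

namespace Cfsg.Agent.Lib.Helper77.Alp

open Cfsg.Agent.Lib.Lead.HKK

/-- the subgroup of fixed points of an automorphism -/
def fixSub {G : Type*} [Group G] (α : MulAut G) : Subgroup G where
  carrier := {g | α g = g}
  one_mem' := map_one α
  mul_mem' := by
    intro a b ha hb
    show α (a * b) = a * b
    rw [map_mul, show α a = a from ha, show α b = b from hb]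
  inv_mem' := by
    intro a ha
    show α a⁻¹ = a⁻¹
    rw [map_inv, show α a = a from ha]

theorem mem_fixSub {G : Type*} [Group G] (α : MulAut G) (g : G) : g ∈ fixSub α ↔ α g = g := Iff.rfl

theorem card_fixSub {G : Type*} [Group G] (α : MulAut G) :
    Nat.card (fixSub α) = Nat.card {g : G // α g = g} := rfl

theorem card_fix_quotAut_le {G : Type*} [Group G] [Finite G] (α : MulAut G) (Y : Subgroup G)
    [Y.Normal] (hY : Y.map α.toMonoidHom = Y) :
    Nat.card {x : G ⧸ Y // quotAut α Y hY x = x} ≤ Nat.card {g : G // α g = g} := by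
  classical
  rw [← card_fixSub, ← card_fixSub]
  set Fb : Subgroup (G ⧸ Y) := fixSub (quotAut α Y hY) with hFb
  set F : Subgroup G := fixSub α with hF
  set D : Subgroup G := Fb.comap (QuotientGroup.mk' Y) with hD
  have hmemD : ∀ g : G, g ∈ D ↔ α g * g⁻¹ ∈ Y := by
    intro g
    rw [hD, Subgroup.mem_comap, hFb, mem_fixSub]
    show quotAut α Y hY (g : G ⧸ Y) = (g : G ⧸ Y) ↔ _
    rw [quotAut_mk, eq_comm, QuotientGroup.eq]
    constructor
    · intro h
      have := Subgroup.Normal.conj_mem (inferInstance : Y.Normal) _ h g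
      simpa [mul_assoc] using this
    · intro h
      have := Subgroup.Normal.conj_mem (inferInstance : Y.Normal) _ h g⁻¹
      simpa [mul_assoc] using this
  -- card D = card Fb * card Y
  have h1 : Nat.card D = Nat.card Fb * Nat.card Y := by
    have hidx : D.index = Fb.index :=
      Subgroup.index_comap_of_surjective Fb (QuotientGroup.mk'_surjective Y)
    have e1 : Nat.card D * D.index = Nat.card G := Subgroup.card_mul_index D
    have e2 : Nat.card Fb * Fb.index = Nat.card (G ⧸ Y) := Subgroup.card_mul_index Fb
    have e3 : Nat.card G = Nat.card (G ⧸ Y) * Nat.card Y :=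
      Subgroup.card_eq_card_quotient_mul_card_subgroup Y
    have hpos : 0 < Fb.index := Nat.pos_of_ne_zero Subgroup.index_ne_zero_of_finite
    rw [hidx] at e1
    have : Nat.card D * Fb.index = (Nat.card Fb * Nat.card Y) * Fb.index := by
      rw [e1, e3, ← e2]; ring
    exact Nat.eq_of_mul_eq_mul_right hpos this
  -- card D ≤ card Y * card F
  have h2 : Nat.card D ≤ Nat.card F * Nat.card Y := by
    -- the map D → (D ⧸ F-cosets): use an injection  D → Y × F  via choice of representatives
    let φ : D → Y := fun g => ⟨α g.1 * g.1⁻¹, (hmemD g.1).1 g.2⟩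
    have hfib : ∀ g h : D, φ g = φ h → h.1⁻¹ * g.1 ∈ F := by
      intro g h hgh
      have h' : α g.1 * g.1⁻¹ = α h.1 * h.1⁻¹ := congrArg Subtype.val hgh
      rw [hF, mem_fixSub, map_mul, map_inv]
      have h3 : α g.1 = α h.1 * h.1⁻¹ * g.1 := by
        rw [← h']; group
      rw [h3]; group
    have hFD : F ≤ D := by
      intro f hf
      rw [hmemD, show α f = f from hf, mul_inv_cancel]
      exact Y.one_mem
    have := Fintype.ofFinite D
    have := Fintype.ofFinite Y
    have := Fintype.ofFinite F
    rw [Nat.card_eq_fintype_card, Nat.card_eq_fintype_card, Nat.card_eq_fintype_card]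
    have key := Finset.card_le_mul_card_image (f := φ) (Finset.univ : Finset D) (Fintype.card F) (by
      intro y hy
      obtain ⟨h, -, rfl⟩ := Finset.mem_image.1 hy
      rw [← Finset.card_univ (α := F)]
      refine Finset.card_le_card_of_surjOn (fun f : F => h * ⟨f.1, hFD f.2⟩) ?_
      intro g hg
      have hg' : φ g = φ h := (Finset.mem_filter.1 hg).2
      refine ⟨⟨h.1⁻¹ * g.1, hfib g h hg'⟩, Finset.mem_coe.2 (Finset.mem_univ _), ?_⟩
      apply Subtype.ext
      show h.1 * (h.1⁻¹ * g.1) = g.1
      group)
    refine key.trans ?_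
    exact Nat.mul_le_mul_left _ (Finset.card_le_univ _)
  have hYpos : 0 < Nat.card Y := Nat.card_pos
  rw [h1] at h2
  exact Nat.le_of_mul_le_mul_right h2 hYpos

end Cfsg.Agent.Lib.Helper77.Alp
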