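import Mathlib
import Cfsg.Agent.Lib.Lead.HKK.AutDefs
import Cfsg.Agent.Lib.Helper77.AlpA1

/-!
# Ladder ALP, rung A1b
-/

set_option autoImplicit false

namespace Cfsg.Agent.Lib.Helper77.Alp

open Cfsg.Agent.Lib.Lead.HKK

theorem pow_mem_of_fix {H : Type*} [Group H] [Finite H] {p : ℕ} [Fact p.Prime]
    (hH : IsPGroup p H) (α : MulAut H) (n : ℕ)
    (hfix : Nat.card {g : H // α g = g} ≤ p ^ n) (Y : Subgroup H) [Y.Characteristic] (g : H)
    (hg : g⁻¹ * α g ∈ Y) : g ^ (p ^ n) ∈ Y := by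
  have hp : p.Prime := Fact.out
  set Fb : Subgroup (H ⧸ Y) := fixSub (quotAut α Y (map_aut_eq α Y)) with hFb
  have hle : Nat.card Fb ≤ p ^ n := by
    rw [hFb, card_fixSub]
    exact (card_fix_quotAut_le α Y (map_aut_eq α Y)).trans hfix
  have hQ : IsPGroup p (H ⧸ Y) := hH.to_quotient Y
  have hFbp : IsPGroup p Fb := hQ.to_subgroup Fb
  obtain ⟨k, hk⟩ := IsPGroup.iff_card.1 hFbp
  have hkn : k ≤ n := by
    rw [hk] at hle
    exact (Nat.pow_le_pow_iff_right hp.one_lt).1 hle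
  have hmem : (g : H ⧸ Y) ∈ Fb := by
    rw [hFb, mem_fixSub, quotAut_mk, eq_comm, QuotientGroup.eq]
    exact hg
  have h1 : ((⟨(g : H ⧸ Y), hmem⟩ : Fb)) ^ (p ^ k) = 1 := by
    rw [← hk]; exact pow_card_eq_one'
  have h2 : (g : H ⧸ Y) ^ (p ^ k) = 1 := by
    simpa using congrArg Subtype.val h1
  have h3 : (g : H ⧸ Y) ^ (p ^ n) = 1 := by
    obtain ⟨d, rfl⟩ := Nat.exists_eq_add_of_le hkn
    rw [pow_add, pow_mul, h2, one_pow]
  rw [← QuotientGroup.eq_one_iff]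
  simpa using h3

end Cfsg.Agent.Lib.Helper77.Alp
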