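import Mathlib
import Cfsg.Agent.S3780
import Cfsg.Agent.Lib.Helper77.AlpA1

/-!
# Ladder ALP, rung A2
-/

set_option autoImplicit false

namespace Cfsg.Agent.Lib.Helper77.Alp

/-- an abelian group of exponent dividing `m` generated by a finset `S` has at most `m ^ #S`
elements -/
theorem card_le_pow_of_closure {V : Type*} [CommGroup V] [Finite V] (S : Finset V)
    (hS : Subgroup.closure (S : Set V) = ⊤) (m : ℕ) (hm : 0 < m) (hexp : ∀ v : V, v ^ m = 1) :
    Nat.card V ≤ m ^ S.card := by
  classical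
  have : NeZero m := ⟨hm.ne'⟩
  let Φ : (S → Fin m) → V := fun g => ∏ i ∈ S.attach, (i.1 : V) ^ (g i).1
  have hsurj : Function.Surjective Φ := by
    intro x
    have hx : x ∈ Submonoid.closure (S : Set V) := by
      rw [← Subgroup.closure_toSubmonoid_of_finite, hS]
      trivial
    obtain ⟨f, -, hf⟩ := Submonoid.mem_closure_finset.1 hx
    refine ⟨fun i => ⟨f i.1 % m, Nat.mod_lt _ hm⟩, ?_⟩
    show ∏ i ∈ S.attach, (i.1 : V) ^ (f i.1 % m) = x
    rw [← hf, ← Finset.prod_attach S]
    refine Finset.prod_congr rfl ?_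
    intro i _
    exact (pow_eq_pow_mod (f i.1) (hexp i.1)).symm
  have h := Nat.card_le_card_of_surjective Φ hsurj
  refine h.trans (le_of_eq ?_)
  rw [Nat.card_fun, Nat.card_eq_fintype_card, Nat.card_eq_fintype_card, Fintype.card_fin,
    Fintype.card_coe]

theorem card_le_of_abelian {V : Type*} [CommGroup V] [Finite V] {p : ℕ} [Fact p.Prime]
    (hV : IsPGroup p V) (β : MulAut V) (hβ : β ^ p = 1) (n e : ℕ)
    (hfix : Nat.card {v : V // β v = v} ≤ p ^ n) (hexp : ∀ v : V, v ^ (p ^ e) = 1) :
    Nat.card V ≤ p ^ (e * (p * n)) := by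
  have hp : p.Prime := Fact.out
  rcases Nat.eq_zero_or_pos e with rfl | he
  · have hsub : Subsingleton V := ⟨fun a b => by
      have ha := hexp a
      have hb := hexp b
      simp only [pow_zero, pow_one] at ha hb
      rw [ha, hb]⟩
    rw [Nat.card_of_subsingleton 1]
    simp
  by_cases hβ1 : β = 1
  · have h1 : Nat.card V ≤ Nat.card {v : V // β v = v} :=
      Nat.card_le_card_of_injective (fun v => ⟨v, by rw [hβ1]; rfl⟩) (by
        intro a b hab
        exact congrArg Subtype.val hab)
    refine (h1.trans hfix).trans ?_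
    refine Nat.pow_le_pow_right hp.pos ?_
    calc n = 1 * (1 * n) := by ring
      _ ≤ e * (p * n) := Nat.mul_le_mul he (Nat.mul_le_mul_right _ hp.pos)
  · have hord : orderOf β = p := orderOf_eq_prime hβ hβ1
    have hFp : IsPGroup p (fixSub β) := hV.to_subgroup _
    obtain ⟨k, hk⟩ := IsPGroup.iff_card.1 hFp
    rw [card_fixSub] at hk
    have hkn : k ≤ n := by
      rw [hk] at hfix
      exact (Nat.pow_le_pow_iff_right hp.one_lt).1 hfix
    obtain ⟨S, hS, hcl⟩ := Cfsg.Agent.S3780.result hV β hord k hk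
    have h1 := card_le_pow_of_closure S hcl (p ^ e) (pow_pos hp.pos _) hexp
    refine h1.trans ?_
    rw [← pow_mul]
    refine Nat.pow_le_pow_right hp.pos ?_
    exact Nat.mul_le_mul_left _ (hS.trans (Nat.mul_le_mul_left _ hkn))

end Cfsg.Agent.Lib.Helper77.Alp
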