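import Mathlib
import Cfsg.Agent.Lib.Lead.HKK.AutDefs
import Cfsg.Agent.Lib.Helper77.AlpA1
import Cfsg.Agent.Lib.Helper77.AlpA2

/-!
# Ladder ALP, rung A3
-/

set_option autoImplicit false

namespace Cfsg.Agent.Lib.Helper77.Alp

open Cfsg.Agent.Lib.Lead.HKK

/-- `card_le_of_abelian` for a group with a commutativity hypothesis -/
theorem card_le_of_comm {W : Type*} [Group W] [Finite W] (hc : ∀ a b : W, a * b = b * a)
    {p : ℕ} [Fact p.Prime]
    (hV : IsPGroup p W) (β : MulAut W) (hβ : β ^ p = 1) (n e : ℕ)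
    (hfix : Nat.card {v : W // β v = v} ≤ p ^ n) (hexp : ∀ v : W, v ^ (p ^ e) = 1) :
    Nat.card W ≤ p ^ (e * (p * n)) := by
  let i : CommGroup W := { (inferInstance : Group W) with mul_comm := hc }
  exact @card_le_of_abelian W i _ p _ hV β hβ n e hfix hexp

theorem relIndex_le_of_section {H : Type*} [Group H] [Finite H] {p : ℕ} [Fact p.Prime]
    (hH : IsPGroup p H) (α : MulAut H) (hα : α ^ p = 1) (n e : ℕ)
    (hfix : Nat.card {g : H // α g = g} ≤ p ^ n) (X Y : Subgroup H) [X.Characteristic]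
    [Y.Characteristic] (hYX : Y ≤ X) (hab : ⁅X, X⁆ ≤ Y) (hexp : ∀ g ∈ X, g ^ (p ^ e) ∈ Y) :
    Y.relIndex X ≤ p ^ (e * (p * n)) := by
  set a : MulAut (H ⧸ Y) := quotAut α Y (map_aut_eq α Y) with ha
  set Xb : Subgroup (H ⧸ Y) := X.map (QuotientGroup.mk' Y) with hXb
  have hinv : Xb.map a.toMonoidHom = Xb := by
    rw [hXb, Subgroup.map_map]
    have h1 : a.toMonoidHom.comp (QuotientGroup.mk' Y)
        = (QuotientGroup.mk' Y).comp α.toMonoidHom := MonoidHom.ext fun g => rfl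
    rw [h1, ← Subgroup.map_map, map_aut_eq α X]
  have hcard : Nat.card Xb = Y.relIndex X := by
    have h := Subgroup.relIndex_comap (⊥ : Subgroup (H ⧸ Y)) (QuotientGroup.mk' Y) X
    rw [MonoidHom.comap_bot, QuotientGroup.ker_mk', Subgroup.relIndex_bot_left] at h
    exact h.symm
  rw [← hcard]
  refine card_le_of_comm ?_ ((hH.to_quotient Y).to_subgroup Xb) (resAut a Xb hinv)
    (resAut_pow_eq_one a Xb hinv p (quotAut_pow_eq_one α Y _ p hα)) n e ?_ ?_
  · rintro ⟨u, hu⟩ ⟨v, hv⟩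
    obtain ⟨x, hx, rfl⟩ := Subgroup.mem_map.1 hu
    obtain ⟨y, hy, rfl⟩ := Subgroup.mem_map.1 hv
    apply Subtype.ext
    show (x : H ⧸ Y) * (y : H ⧸ Y) = (y : H ⧸ Y) * (x : H ⧸ Y)
    rw [← QuotientGroup.mk_mul, ← QuotientGroup.mk_mul, QuotientGroup.eq]
    have h := hab (Subgroup.commutator_mem_commutator (X.inv_mem hy) (X.inv_mem hx))
    rw [commutatorElement_def] at h
    simpa [mul_assoc] using h
  · exact (card_fix_resAut_le a Xb hinv).trans
      ((card_fix_quotAut_le α Y (map_aut_eq α Y)).trans hfix)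
  · rintro ⟨u, hu⟩
    obtain ⟨x, hx, rfl⟩ := Subgroup.mem_map.1 hu
    apply Subtype.ext
    show (x : H ⧸ Y) ^ (p ^ e) = 1
    rw [← QuotientGroup.mk_pow, QuotientGroup.eq_one_iff]
    exact hexp x hx

end Cfsg.Agent.Lib.Helper77.Alp
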