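import Mathlib
import Cfsg.Agent.S3781
import Cfsg.Agent.Lib.Lead.HKK.Defs
import Cfsg.Agent.Lib.Lead.HKK.AutDefs
import Cfsg.Agent.Lib.Helper77.AlpA1b
import Cfsg.Agent.Lib.Helper77.AlpA3
import Cfsg.Agent.Lib.Helper71.AlpA5a

/-!
# Ladder ALP, rung A4 (the `p`-group case), with GRPB as a hypothesis
-/

set_option autoImplicit false

namespace Cfsg.Agent.Lib.Helper77.Alp

open Cfsg.Agent.Lib.Lead.HKK
open Cfsg.Agent.Lib.Helper71.Alp

/-- rung A4 with `pow_mem_lcs_succ` (GRPB) as a hypothesis -/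
theorem alperin_pgroup_of (p : ℕ) [Fact p.Prime] (n c : ℕ) (hc1 : 1 ≤ c)
    (hGRPB : ∀ (K : Type) [Group K] [Finite K] (α : MulAut K), α ^ p = 1 → ∀ (N : ℕ),
      (∀ d g, g ∈ Γ K d → g⁻¹ * α g ∈ Γ K (d + 1) → g ^ N ∈ Γ K (d + 1)) →
      ∀ g ∈ Γ K c, g ^ (N ^ (c + 1) * p ^ c) ∈ Γ K (c + 1))
    (G : Type) [Group G] [Finite G] (hG : IsPGroup p G) (α : MulAut G) (hα : α ^ p = 1)
    (hfix : Nat.card {g : G // α g = g} ≤ p ^ n) :
    derivedSeries G ((n * (c + 1) + c) * (p * n) + (c + 1)) = ⊥ := by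
  have hp : p.Prime := Fact.out
  set e : ℕ := n * (c + 1) + c with he
  set a : ℕ := e * (p * n) with ha
  set H : Subgroup G := Γ G a with hH
  have hHchar : H.Characteristic := by rw [hH]; infer_instance
  have hHn : H.Normal := inferInstance
  have hHp : IsPGroup p H := hG.to_subgroup H
  set αH : MulAut H := resAut α H (map_aut_eq α H) with hαH
  have hαHp : αH ^ p = 1 := resAut_pow_eq_one α H _ p hα
  have hfixH : Nat.card {g : H // αH g = g} ≤ p ^ n := (card_fix_resAut_le α H _).trans hfix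
  -- exponent of the section
  have hexp : ∀ g ∈ Γ H c, g ^ (p ^ e) ∈ Γ H (c + 1) := by
    intro g hg
    have h := hGRPB H αH hαHp (p ^ n)
      (fun d g _ h => pow_mem_of_fix hHp αH n hfixH (Γ H (d + 1)) g h) g hg
    have h2 : (p ^ n) ^ (c + 1) * p ^ c = p ^ e := by
      rw [← pow_mul, ← pow_add]
    rwa [h2] at h
  have hrel : (Γ H (c + 1)).relIndex (Γ H c) ≤ p ^ a :=
    relIndex_le_of_section hHp αH hαHp n e hfixH (Γ H c) (Γ H (c + 1))
      (Subgroup.lowerCentralSeries_antitone _ (Nat.le_succ c))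
      (Subgroup.commutator_mono le_rfl le_top) hexp
  have hbot : Γ H (c + 1) = ⊥ := by
    by_contra hne
    have hne' : H.lowerCentralSeries (c + 1) ≠ ⊥ := by
      rw [← Subgroup.top_subtype_lowerCentralSeries]
      intro h0
      apply hne
      rwa [← Subgroup.map_subtype_inj, Subgroup.map_bot]
    have h := Cfsg.Agent.S3781.result hG (a + 1) (Nat.succ_le_succ (Nat.zero_le _)) H
      (by rw [Nat.add_sub_cancel]) (c + 1) (Nat.succ_le_succ hc1) hne'
    rw [Nat.add_sub_cancel, ← Subgroup.top_subtype_lowerCentralSeries H (c + 1),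
      ← Subgroup.top_subtype_lowerCentralSeries H c,
      Subgroup.relIndex_map_map_of_injective _ _ H.subtype_injective] at h
    have h2 := h.trans hrel
    exact absurd h2 (not_le.2 (Nat.pow_lt_pow_right hp.one_lt (Nat.lt_succ_self a)))
  have hb : derivedSeries H (c + 1) = ⊥ := by
    rw [eq_bot_iff, ← hbot]
    exact derivedSeries_le_Γ H (c + 1)
  have haq : derivedSeries (G ⧸ H) a = ⊥ := by
    rw [eq_bot_iff]
    refine (derivedSeries_le_Γ (G ⧸ H) a).trans ?_
    have h1 := Subgroup.map_lowerCentralSeries (⊤ : Subgroup G) (QuotientGroup.mk' H) a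
    rw [Subgroup.map_top_of_surjective _ (QuotientGroup.mk'_surjective H)] at h1
    show (⊤ : Subgroup (G ⧸ H)).lowerCentralSeries a ≤ ⊥
    rw [← h1]
    show Subgroup.map (QuotientGroup.mk' H) H ≤ ⊥
    rw [QuotientGroup.map_mk'_self]
  exact derivedSeries_add_eq_bot H a (c + 1) haq hb

end Cfsg.Agent.Lib.Helper77.Alp
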