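import Mathlib

/-!
# Cyclic T.I. Sylow subgroups and modular representations: algebraic preliminaries
-/

set_option autoImplicit false
set_option linter.unusedSectionVars false

namespace Cfsg.Agent.Lib.Helper77

theorem comm_expansion {R : Type*} [CommRing R] (t : R) (a k : ℕ) :
    t ^ (k + 1) ∣ ((1 + t) ^ a - 1) ^ k - (a : R) ^ k * t ^ k := by
  have h1 : (1 + t) ^ a - 1 = t * ∑ i ∈ Finset.range a, (1 + t) ^ i := by
    have := mul_geom_sum (1 + t) a
    rw [← this]; ring
  have h2 : t ∣ (∑ i ∈ Finset.range a, (1 + t) ^ i) - (a : R) := by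
    have : (∑ i ∈ Finset.range a, (1 + t) ^ i) - (a : R)
        = ∑ i ∈ Finset.range a, ((1 + t) ^ i - 1) := by
      rw [Finset.sum_sub_distrib]; simp
    rw [this]
    apply Finset.dvd_sum
    intro i _
    have := sub_dvd_pow_sub_pow (1 + t) 1 i
    simpa using this
  have h3 : t ∣ (∑ i ∈ Finset.range a, (1 + t) ^ i) ^ k - (a : R) ^ k :=
    h2.trans (sub_dvd_pow_sub_pow _ _ k)
  obtain ⟨w, hw⟩ := h3
  refine ⟨w, ?_⟩
  rw [h1, mul_pow, pow_succ]
  linear_combination t ^ k * hw

theorem end_expansion (F : Type*) {A : Type*} [Field F] [Ring A] [Algebra F A] (X : A) (a k : ℕ) :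
    ∃ E : A, ((1 + X) ^ a - 1) ^ k = ((a : F) ^ k) • X ^ k + X ^ (k + 1) * E := by
  obtain ⟨w, hw⟩ := comm_expansion (Polynomial.X : Polynomial F) a k
  refine ⟨Polynomial.aeval X w, ?_⟩
  have := congrArg (Polynomial.aeval X) hw
  simp only [map_sub, map_pow, map_add, map_one, Polynomial.aeval_X, map_mul, map_natCast] at this
  have h2 : ((a : F) ^ k) • X ^ k = (a : A) ^ k * X ^ k := by
    rw [Algebra.smul_def, map_pow, map_natCast]
  rw [h2, ← this]; abel

section charp

variable {F A : Type*} [Field F] [Ring A] [Algebra F A] {p : ℕ} [hp : Fact p.Prime] [CharP F p]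

include F in
theorem sub_one_pow_char_pow (Y : A) (m : ℕ) : (Y - 1) ^ (p ^ m) = Y ^ (p ^ m) - 1 := by
  have hpoly : ((Polynomial.X : Polynomial F) - 1) ^ (p ^ m) = Polynomial.X ^ (p ^ m) - 1 := by
    rw [sub_pow_char_pow, one_pow]
  simpa using congrArg (Polynomial.aeval Y) hpoly

include F in
theorem geom_sum_pow_char (Y : A) (m : ℕ) :
    ∑ i ∈ Finset.range (p ^ m), (Y ^ p) ^ i = (Y - 1) ^ (p ^ (m + 1) - p) := by
  have hpoly : ∑ i ∈ Finset.range (p ^ m), ((Polynomial.X : Polynomial F) ^ p) ^ i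
      = ((Polynomial.X : Polynomial F) - 1) ^ (p ^ (m + 1) - p) := by
    have hne : ((Polynomial.X : Polynomial F) - 1) ^ p ≠ 0 := by
      apply pow_ne_zero
      have := Polynomial.X_sub_C_ne_zero (1 : F)
      simpa using this
    apply mul_left_cancel₀ hne
    have hle : p ≤ p ^ (m + 1) := by
      calc p = p ^ 1 := (pow_one p).symm
        _ ≤ p ^ (m + 1) := Nat.pow_le_pow_right hp.1.pos (by omega)
    rw [← pow_add, Nat.add_sub_cancel' hle, sub_pow_char_pow, one_pow]
    have h1 : ((Polynomial.X : Polynomial F) - 1) ^ p = Polynomial.X ^ p - 1 := by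
      rw [sub_pow_char, one_pow]
    rw [h1, mul_geom_sum, ← pow_mul, pow_succ p m, mul_comm (p ^ m) p]
  simpa using congrArg (Polynomial.aeval Y) hpoly

end charp

/-- a sum over a free `H`-set vanishes as soon as all orbit sums vanish -/
theorem sum_eq_zero_of_free {H S M : Type*} [Group H] [Fintype H] [Fintype S] [MulAction H S]
    [AddCommMonoid M] (hfree : ∀ (w : H) (s : S), w • s = s → w = 1) (F : S → M)
    (h : ∀ s, ∑ w : H, F (w • s) = 0) : ∑ s, F s = 0 := by
  classical
  rw [← Finset.sum_fiberwise (s := Finset.univ)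
    (g := fun s : S => (Quotient.mk'' s : MulAction.orbitRel.Quotient H S)) (f := F)]
  apply Finset.sum_eq_zero
  intro o _
  obtain ⟨s₀, rfl⟩ := Quotient.exists_rep o
  have : Finset.univ.filter (fun s : S => (Quotient.mk'' s : MulAction.orbitRel.Quotient H S)
      = Quotient.mk _ s₀) = Finset.univ.image (fun w : H => w • s₀) := by
    ext s
    simp only [Finset.mem_filter, Finset.mem_univ, true_and, Finset.mem_image]
    constructor
    · intro hs
      have := Quotient.exact hs
      exact this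
    · rintro ⟨w, rfl⟩
      apply Quotient.sound
      exact ⟨w, rfl⟩
  rw [this, Finset.sum_image, h]
  intro a _ b _ hab
  have hab' : a • s₀ = b • s₀ := hab
  have h1 : (b⁻¹ * a) • s₀ = s₀ := by
    rw [mul_smul, hab', inv_smul_smul]
  have := hfree _ _ h1
  exact (inv_mul_eq_one.1 this).symm

/-- conjugation action of a subgroup on a stable finite set -/
@[reducible] def conjOn {G : Type*} [Group G] (H : Subgroup G) (T : Finset G)
    (hT : ∀ w ∈ H, ∀ z ∈ T, w * z * w⁻¹ ∈ T) : MulAction H T where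
  smul w z := ⟨w * z * (w : G)⁻¹, hT w w.2 z z.2⟩
  one_smul z := Subtype.ext (by
    show ((1 : H) : G) * z * ((1 : H) : G)⁻¹ = z
    simp)
  mul_smul a b z := Subtype.ext (by
    show ((a * b : H) : G) * z * ((a * b : H) : G)⁻¹ = a * (b * z * (b : G)⁻¹) * (a : G)⁻¹
    simp [mul_assoc])

theorem sum_conj_free {G M : Type*} [Group G] [AddCommMonoid M] (H : Subgroup G) [Fintype H]
    (T : Finset G) (hT : ∀ w ∈ H, ∀ z ∈ T, w * z * w⁻¹ ∈ T)
    (hfree : ∀ w ∈ H, ∀ z ∈ T, w * z * w⁻¹ = z → w = 1)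
    (F : G → M) (h : ∀ z ∈ T, ∑ w : H, F (w * z * (w : G)⁻¹) = 0) : ∑ z ∈ T, F z = 0 := by
  rw [← Finset.sum_coe_sort T F]
  let _ := conjOn H T hT
  apply sum_eq_zero_of_free (H := H) (S := T)
  · intro w s hws
    have h1 : (w : G) * s * (w : G)⁻¹ = s := congrArg (fun t : T => (t : G)) hws
    exact Subtype.ext (hfree w w.2 s s.2 h1)
  · intro s
    exact h s s.2

end Cfsg.Agent.Lib.Helper77
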