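import Mathlib
import Cfsg.Agent.Lib.Helper77.CycTIA

/-!
# Cyclic T.I. Sylow subgroups and modular representations: the trace argument
-/

set_option autoImplicit false
set_option linter.unusedSectionVars false

namespace Cfsg.Agent.Lib.Helper77

open Module

variable {F V G : Type*} [Field F] [AddCommGroup V] [Module F V] [Group G]

theorem rho_conj_pow (ρ : Representation F G V) (g z : G) (k : ℕ) :
    (ρ (g * z * g⁻¹) - 1) ^ k = ρ g * (ρ z - 1) ^ k * ρ g⁻¹ := by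
  have h1 : ρ g * ρ g⁻¹ = 1 := by rw [← map_mul, mul_inv_cancel, map_one]
  have h2 : ρ g⁻¹ * ρ g = 1 := by rw [← map_mul, inv_mul_cancel, map_one]
  have h3 : ρ (g * z * g⁻¹) - 1 = ρ g * (ρ z - 1) * ρ g⁻¹ := by
    rw [map_mul, map_mul, mul_sub, sub_mul, mul_one, h1]
  rw [h3]
  induction k with
  | zero => simp [h1]
  | succ k ih =>
    rw [pow_succ, ih, pow_succ]
    calc ρ g * (ρ z - 1) ^ k * ρ g⁻¹ * (ρ g * (ρ z - 1) * ρ g⁻¹)
        = ρ g * (ρ z - 1) ^ k * (ρ g⁻¹ * ρ g) * (ρ z - 1) * ρ g⁻¹ := by noncomm_ring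
      _ = _ := by rw [h2, mul_one, mul_assoc (ρ g)]

section

variable {p : ℕ} [hp : Fact p.Prime] [CharP F p]

theorem X_pow_card (ρ : Representation F G V) (x : G) (n : ℕ) (hx : orderOf x = p ^ n) :
    (ρ x - 1) ^ (p ^ n) = 0 := by
  rw [sub_one_pow_char_pow (F := F), ← map_pow, ← hx, pow_orderOf_eq_one, map_one, sub_self]

theorem X_pow_p (ρ : Representation F G V) (x : G) : (ρ x - 1) ^ p = ρ (x ^ p) - 1 := by
  have := sub_one_pow_char_pow (F := F) (p := p) (ρ x) 1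
  rw [pow_one] at this
  rw [this, map_pow]

theorem X_pow_of_finrank_le [FiniteDimensional F V] (ρ : Representation F G V) (x : G) (n : ℕ)
    (hx : orderOf x = p ^ n) (m : ℕ) (hm : finrank F V ≤ m) : (ρ x - 1) ^ m = 0 := by
  have h1 := Module.End.ker_pow_le_ker_pow_finrank (ρ x - 1 : Module.End F V) (p ^ n)
  rw [X_pow_card ρ x n hx, LinearMap.ker_zero, top_le_iff, LinearMap.ker_eq_top] at h1
  exact pow_eq_zero_of_le hm h1

theorem sum_zpowers_rho [Finite G] [FiniteDimensional F V] (ρ : Representation F G V) (x : G)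
    (n : ℕ) (hn : 1 ≤ n) (hx : orderOf x = p ^ n) (hd : finrank F V ≤ p ^ n - p)
    [Fintype (Subgroup.zpowers (x ^ p))] :
    ∑ w : Subgroup.zpowers (x ^ p), ρ (w : G) = 0 := by
  obtain ⟨m, rfl⟩ : ∃ m, n = m + 1 := ⟨n - 1, by omega⟩
  have ho : orderOf (x ^ p) = p ^ m := by
    rw [orderOf_pow_of_dvd hp.1.ne_zero (by rw [hx]; exact dvd_pow_self p (by omega)), hx, pow_succ,
      Nat.mul_div_cancel _ hp.1.pos]
  rw [← (finEquivZPowers (isOfFinOrder_of_finite (x ^ p))).sum_comp]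
  simp only [finEquivZPowers_apply]
  rw [Fin.sum_univ_eq_sum_range (fun i => ρ ((x ^ p) ^ i)) (orderOf (x ^ p)), ho]
  have : ∀ i, ρ ((x ^ p) ^ i) = ((ρ x) ^ p) ^ i := by
    intro i; rw [map_pow, map_pow]
  simp only [this]
  rw [geom_sum_pow_char (F := F)]
  exact X_pow_of_finrank_le ρ x (m + 1) hx _ hd

theorem rho_sub_mem_range [Finite G] (ρ : Representation F G V) (x : G) (w : G)
    (hw : w ∈ Subgroup.zpowers (x ^ p)) (u : V) :
    ρ w u - u ∈ LinearMap.range ((ρ x - 1) ^ p) := by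
  rw [← mem_powers_iff_mem_zpowers] at hw
  obtain ⟨j, rfl⟩ := Submonoid.mem_powers_iff _ _ |>.1 hw
  have h1 : ρ ((x ^ p) ^ j) - 1 = (ρ x - 1) ^ p * ∑ i ∈ Finset.range j, (ρ (x ^ p)) ^ i := by
    rw [X_pow_p (p := p), mul_geom_sum, map_pow]
  refine ⟨(∑ i ∈ Finset.range j, (ρ (x ^ p)) ^ i) u, ?_⟩
  have := congrArg (fun f : Module.End F V => f u) h1
  simp only [LinearMap.sub_apply, Module.End.one_apply, Module.End.mul_apply] at this
  exact this.symm

/-- the sum over a set on which `⟨x^p⟩` acts freely maps `V` into `X^p V`. -/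
theorem tau_mem [Finite G] (ρ : Representation F G V) (x : G)
    [Fintype (Subgroup.zpowers (x ^ p))]
    (hσ : ∑ w : Subgroup.zpowers (x ^ p), ρ (w : G) = 0)
    (T : Finset G) (hT : ∀ w ∈ Subgroup.zpowers (x ^ p), ∀ z ∈ T, w * z * w⁻¹ ∈ T)
    (hfree : ∀ w ∈ Subgroup.zpowers (x ^ p), ∀ z ∈ T, w * z * w⁻¹ = z → w = 1) (k : ℕ) (v : V) :
    (∑ z ∈ T, (ρ z - 1) ^ k) v ∈ LinearMap.range ((ρ x - 1) ^ p) := by
  obtain ⟨R, hR⟩ : ∃ R, R = LinearMap.range ((ρ x - 1) ^ p) := ⟨_, rfl⟩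
  rw [← hR, ← Submodule.Quotient.mk_eq_zero, ← Submodule.mkQ_apply, LinearMap.sum_apply, map_sum]
  apply sum_conj_free (Subgroup.zpowers (x ^ p)) T hT hfree
    (fun z => R.mkQ (((ρ z - 1) ^ k) v))
  intro z _
  have hπ : ∀ w ∈ Subgroup.zpowers (x ^ p), ∀ u : V, R.mkQ (ρ w u) = R.mkQ u := by
    intro w hw u
    rw [← sub_eq_zero, ← map_sub, Submodule.mkQ_apply, Submodule.Quotient.mk_eq_zero, hR]
    exact rho_sub_mem_range ρ x w hw u
  have h1 : ∀ w : Subgroup.zpowers (x ^ p),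
      R.mkQ (((ρ ((w : G) * z * (w : G)⁻¹) - 1) ^ k) v)
        = R.mkQ (((ρ z - 1) ^ k) (ρ ((w⁻¹ : Subgroup.zpowers (x ^ p)) : G) v)) := by
    intro w
    rw [rho_conj_pow, Module.End.mul_apply, Module.End.mul_apply, hπ w w.2]
    rfl
  simp only [h1]
  rw [← map_sum, ← map_sum]
  have h2 : ∑ w : Subgroup.zpowers (x ^ p), ρ ((w⁻¹ : Subgroup.zpowers (x ^ p)) : G) v = 0 := by
    have h3 := Equiv.sum_comp (Equiv.inv (Subgroup.zpowers (x ^ p)))
      (fun w : Subgroup.zpowers (x ^ p) => ρ (w : G) v)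
    have h4 : ∑ w : Subgroup.zpowers (x ^ p), ρ (w : G) v = 0 := by
      rw [← LinearMap.sum_apply, hσ]; rfl
    rw [h4] at h3
    exact h3
  rw [h2, map_zero, map_zero]

end

end Cfsg.Agent.Lib.Helper77
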