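import Mathlib
import Cfsg.Agent.Lib.Helper77.CycTIB
import Cfsg.Agent.S0213

/-!
# Cyclic T.I. Sylow subgroups: faithful irreducible modular representations have large dimension
-/

set_option autoImplicit false
set_option linter.unusedSectionVars false

namespace Cfsg.Agent.Lib.Helper77

open Module

theorem free_of_TI {G : Type*} [Group G] [Finite G] {p : ℕ} [Fact p.Prime] (P : Sylow p G)
    (hTI : ∀ Q : Sylow p G, Q ≠ P → (P : Subgroup G) ⊓ (Q : Subgroup G) = ⊥)
    (x : G) (hxmem : x ∈ (P : Subgroup G))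
    (hxP : ∀ y ∈ (P : Subgroup G), y ∈ Subgroup.zpowers x) (z : G) (hz : IsConj x z)
    (hzP : z ∉ (P : Subgroup G)) (w : G) (hw : w ∈ (P : Subgroup G)) (hwz : w * z * w⁻¹ = z) :
    w = 1 := by
  obtain ⟨g, hg⟩ := isConj_iff.1 hz
  obtain ⟨Q, hQ⟩ : ∃ Q : Sylow p G, Q = g • P := ⟨_, rfl⟩
  have hQmem : ∀ h, h ∈ (Q : Subgroup G) ↔ g⁻¹ * h * g ∈ (P : Subgroup G) := by
    intro h
    rw [hQ, Sylow.coe_subgroup_smul, Subgroup.mem_pointwise_smul_iff_inv_smul_mem]
    simp [MulAut.smul_def]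
  have hzQ : z ∈ (Q : Subgroup G) := by
    rw [hQmem, ← hg]
    have : g⁻¹ * (g * x * g⁻¹) * g = x := by group
    rw [this]; exact hxmem
  have hne : Q ≠ P := fun h => hzP (h ▸ hzQ)
  have hbot := hTI Q hne
  have hc : Commute w z := by
    show w * z = z * w
    calc w * z = w * z * w⁻¹ * w := by group
      _ = z * w := by rw [hwz]
  have hwN : w ∈ Subgroup.normalizer ((Q : Subgroup G) : Set G) := by
    apply Subgroup.centralizer_le_normalizer
    rw [Subgroup.mem_centralizer_iff]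
    intro h hh
    obtain ⟨j, hj⟩ := Subgroup.mem_zpowers_iff.1 (hxP _ ((hQmem h).1 hh))
    have hhz : h = z ^ j := by
      rw [← hg, conj_zpow, hj]; group
    rw [hhz]; exact (hc.zpow_right j).eq.symm
  have h1 := IsPGroup.inf_normalizer_sylow P.2 Q
  have hmem : w ∈ (P : Subgroup G) ⊓ (Q : Subgroup G) := by
    rw [← h1]; exact ⟨hw, hwN⟩
  rw [hbot] at hmem
  exact Subgroup.mem_bot.1 hmem

theorem cyclic_ti_dim_bound {G : Type*} [Group G] [Finite G] (p : ℕ) [Fact p.Prime] (P : Sylow p G)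
    (hcyc : IsCyclic P) (n : ℕ) (hn : 2 ≤ n) (hPn : Nat.card P = p ^ n)
    (hTI : ∀ Q : Sylow p G, Q ≠ P → (P : Subgroup G) ⊓ (Q : Subgroup G) = ⊥)
    (F : Type*) [Field F] [CharP F p] (V : Type*) [AddCommGroup V] [Module F V]
    [FiniteDimensional F V] (ρ : Representation F G V) (hfaith : Function.Injective ρ)
    (hirr : ρ.IsIrreducible) : p ^ n - (p - 1) ≤ Module.finrank F V := by
  classical
  have hp : p.Prime := Fact.out
  have := Fintype.ofFinite G
  by_contra hlt
  have hle : p ≤ p ^ n := by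
    calc p = p ^ 1 := (pow_one p).symm
      _ ≤ p ^ n := Nat.pow_le_pow_right hp.pos (by omega)
  have hd : finrank F V ≤ p ^ n - p := by
    have := hp.two_le
    omega
  obtain ⟨x₀, hx₀⟩ := hcyc.exists_generator
  obtain ⟨x, hxdef⟩ : ∃ x : G, x = x₀ := ⟨_, rfl⟩
  have hxmem : x ∈ (P : Subgroup G) := hxdef ▸ x₀.2
  have hx : orderOf x = p ^ n := by
    rw [hxdef, Subgroup.orderOf_coe, orderOf_eq_card_of_forall_mem_zpowers hx₀, hPn]
  have hxP : ∀ y ∈ (P : Subgroup G), y ∈ Subgroup.zpowers x := by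
    intro y hy
    obtain ⟨j, hj⟩ := Subgroup.mem_zpowers_iff.1 (hx₀ ⟨y, hy⟩)
    refine Subgroup.mem_zpowers_iff.2 ⟨j, ?_⟩
    rw [hxdef, ← Subgroup.coe_zpow, hj]
  obtain ⟨X, hX⟩ : ∃ X : Module.End F V, X = ρ x - 1 := ⟨_, rfl⟩
  obtain ⟨cl, hcl⟩ : ∃ cl : Finset G, cl = Finset.univ.filter (fun z => IsConj x z) := ⟨_, rfl⟩
  obtain ⟨O, hO⟩ : ∃ O : Finset G, O = cl.filter (fun z => z ∈ (P : Subgroup G)) := ⟨_, rfl⟩
  obtain ⟨S, hS⟩ : ∃ S : Finset G, S = cl.filter (fun z => z ∉ (P : Subgroup G)) := ⟨_, rfl⟩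
  have hmemcl : ∀ z, z ∈ cl ↔ IsConj x z := by
    intro z; rw [hcl]; simp
  have hmemS : ∀ z, z ∈ S ↔ IsConj x z ∧ z ∉ (P : Subgroup G) := by
    intro z; rw [hS, Finset.mem_filter, hmemcl]
  have hmemO : ∀ z, z ∈ O ↔ IsConj x z ∧ z ∈ (P : Subgroup G) := by
    intro z; rw [hO, Finset.mem_filter, hmemcl]
  have hzp_le : ∀ w ∈ Subgroup.zpowers (x ^ p), w ∈ (P : Subgroup G) := by
    intro w hw
    exact (Subgroup.zpowers_le.2 (pow_mem hxmem p)) hw
  have hST : ∀ w ∈ Subgroup.zpowers (x ^ p), ∀ z ∈ S, w * z * w⁻¹ ∈ S := by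
    intro w hw z hz
    rw [hmemS] at hz ⊢
    refine ⟨hz.1.trans (isConj_iff.2 ⟨w, rfl⟩), fun h => hz.2 ?_⟩
    have hwP := hzp_le w hw
    have : z = w⁻¹ * (w * z * w⁻¹) * w := by group
    rw [this]
    exact mul_mem (mul_mem (inv_mem hwP) h) hwP
  have hSfree : ∀ w ∈ Subgroup.zpowers (x ^ p), ∀ z ∈ S, w * z * w⁻¹ = z → w = 1 := by
    intro w hw z hz hwz
    rw [hmemS] at hz
    exact free_of_TI P hTI x hxmem hxP z hz.1 hz.2 w (hzp_le w hw) hwz
  have hσ := sum_zpowers_rho ρ x n (by omega) hx hd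
  have hτ : ∀ v, (∑ z ∈ S, (ρ z - 1) ^ (p - 1)) v ∈ LinearMap.range (X ^ p) := by
    intro v
    rw [hX]
    exact tau_mem ρ x hσ S hST hSfree (p - 1) v
  -- cardinalities in `F`
  have hcardS : ((S.card : ℕ) : F) = 0 := by
    have h1 := sum_conj_free (Subgroup.zpowers (x ^ p)) S hST hSfree (fun _ => (1 : F)) (by
      intro z _
      rw [Finset.sum_const, Finset.card_univ, nsmul_eq_mul, mul_one, Fintype.card_zpowers,
        CharP.cast_eq_zero_iff F p,
        orderOf_pow_of_dvd hp.ne_zero (by rw [hx]; exact dvd_pow_self p (by omega)), hx]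
      obtain ⟨m, rfl⟩ : ∃ m, n = m + 2 := ⟨n - 2, by omega⟩
      rw [pow_succ, Nat.mul_div_cancel _ hp.pos]
      exact dvd_pow_self p (by omega))
    simpa using h1
  have hcardcl : ((cl.card : ℕ) : F) ≠ 0 := by
    rw [Ne, CharP.cast_eq_zero_iff F p]
    intro hdvd
    have h1 := Cfsg.Agent.S0213.card_class_mul x
    have h2 : Nat.card {w : G // IsConj x w} = cl.card := by
      rw [Nat.card_eq_fintype_card, Fintype.card_subtype, hcl]
    rw [h2] at h1
    have h3 : (P : Subgroup G) ≤ Subgroup.centralizer ({x} : Set G) := by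
      intro y hy
      rw [Subgroup.mem_centralizer_singleton_iff]
      obtain ⟨j, rfl⟩ := Subgroup.mem_zpowers_iff.1 (hxP y hy)
      exact ((Commute.refl x).zpow_left j).eq
    have h4 : (Subgroup.centralizer ({x} : Set G)).index = cl.card := by
      have h5 := Subgroup.card_mul_index (Subgroup.centralizer ({x} : Set G))
      rw [← h1, mul_comm] at h5
      exact Nat.eq_of_mul_eq_mul_right Nat.card_pos h5
    have h6 : (Subgroup.centralizer ({x} : Set G)).index ∣ (P : Subgroup G).index :=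
      Subgroup.index_dvd_of_le h3
    rw [h4] at h6
    exact P.not_dvd_index (hdvd.trans h6)
  have hcardO : ((O.card : ℕ) : F) ≠ 0 := by
    have h1 : O.card + S.card = cl.card := by
      rw [hO, hS]; exact Finset.card_filter_add_card_filter_not _
    rw [← h1, Nat.cast_add, hcardS, add_zero] at hcardcl
    exact hcardcl
  -- expansion on `O`
  have hOexp : ∀ y ∈ O, ∃ E : Module.End F V, (ρ y - 1) ^ (p - 1) = X ^ (p - 1) + X ^ p * E := by
    intro y hy
    rw [hmemO] at hy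
    have hyz := hxP y hy.2
    rw [← mem_powers_iff_mem_zpowers] at hyz
    obtain ⟨a, rfl⟩ := (Submonoid.mem_powers_iff _ _).1 hyz
    have hoy : orderOf (x ^ a) = orderOf x := by
      obtain ⟨g, hg⟩ := isConj_iff.1 hy.1
      rw [← hg]
      exact orderOf_injective (MulAut.conj g).toMonoidHom (MulAut.conj g).injective x
    have hcop : Nat.Coprime a p := by
      rw [Nat.coprime_comm, Nat.Prime.coprime_iff_not_dvd hp]
      intro hpa
      have h1 : (x ^ a) ^ (p ^ (n - 1)) = 1 := by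
        obtain ⟨b, rfl⟩ := hpa
        rw [← pow_mul, mul_comm p b, mul_assoc, ← pow_succ', Nat.sub_add_cancel (by omega), mul_comm,
          pow_mul, ← hx, pow_orderOf_eq_one, one_pow]
      have h2 := orderOf_dvd_of_pow_eq_one h1
      rw [hoy, hx] at h2
      have h3 := Nat.le_of_dvd (pow_pos hp.pos _) h2
      have h4 : p ^ (n - 1) < p ^ n := Nat.pow_lt_pow_right hp.one_lt (by omega)
      omega
    have hfer : ((a : F)) ^ (p - 1) = 1 := by
      have h1 := Nat.ModEq.pow_totient hcop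
      rw [Nat.totient_prime hp] at h1
      have h2 := (CharP.natCast_eq_natCast F p).2 h1
      rw [Nat.cast_pow, Nat.cast_one] at h2
      exact h2
    obtain ⟨E, hE⟩ := end_expansion F X a (p - 1)
    refine ⟨E, ?_⟩
    have h1 : ρ (x ^ a) = (1 + X) ^ a := by
      rw [map_pow, hX]; congr 1; abel
    rw [h1, hE, hfer, one_smul, Nat.sub_add_cancel hp.one_le]
  choose! E hE using hOexp
  have hφ0 : ∑ y ∈ O, (ρ y - 1) ^ (p - 1)
      = (O.card : F) • X ^ (p - 1) + X ^ p * ∑ y ∈ O, E y := by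
    rw [Finset.sum_congr rfl hE, Finset.sum_add_distrib, Finset.sum_const, Finset.mul_sum,
      Nat.cast_smul_eq_nsmul]
  obtain ⟨Φ, hΦ⟩ : ∃ Φ : Module.End F V, Φ = ∑ z ∈ cl, (ρ z - 1) ^ (p - 1) := ⟨_, rfl⟩
  have hsplit : Φ = ∑ y ∈ O, (ρ y - 1) ^ (p - 1) + ∑ z ∈ S, (ρ z - 1) ^ (p - 1) := by
    rw [hΦ, hO, hS]; exact (Finset.sum_filter_add_sum_filter_not cl _ _).symm
  have hcomm : ∀ g : G, Φ * ρ g = ρ g * Φ := by
    intro g
    have h1 : ρ g * Φ * ρ g⁻¹ = Φ := by
      rw [hΦ, Finset.mul_sum, Finset.sum_mul]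
      apply Finset.sum_equiv (MulAut.conj g).toEquiv
      · intro z
        rw [hmemcl, hmemcl]
        constructor
        · intro h; exact h.trans (isConj_iff.2 ⟨g, rfl⟩)
        · intro h; exact h.trans (isConj_iff.2 ⟨g, rfl⟩).symm
      · intro z _
        rw [← rho_conj_pow]
        rfl
    have h2 : ρ g⁻¹ * ρ g = 1 := by rw [← map_mul, inv_mul_cancel, map_one]
    calc Φ * ρ g = ρ g * Φ * ρ g⁻¹ * ρ g := by rw [h1]
      _ = ρ g * Φ * (ρ g⁻¹ * ρ g) := by noncomm_ring
      _ = ρ g * Φ := by rw [h2, mul_one]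
  have hXq : X ^ (p ^ n) = 0 := by rw [hX]; exact X_pow_card ρ x n hx
  have hx1 : x ≠ 1 := by
    intro h
    rw [h, orderOf_one] at hx
    have : 1 < p ^ n := Nat.one_lt_pow (by omega) hp.one_lt
    omega
  -- the value of `Φ`
  have hΦv : ∀ v, ∃ u, Φ v = (O.card : F) • (X ^ (p - 1)) v + (X ^ p) u := by
    intro v
    obtain ⟨u, hu⟩ := hτ v
    refine ⟨(∑ y ∈ O, E y) v + u, ?_⟩
    rw [hsplit, hφ0, LinearMap.add_apply, LinearMap.add_apply, LinearMap.smul_apply,
      Module.End.mul_apply, map_add, hu, add_assoc]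
  -- `Φ` is not surjective, hence zero
  have hΦ0 : Φ = 0 := by
    let f : Representation.IntertwiningMap ρ ρ := ⟨Φ, fun g => hcomm g⟩
    have := hirr
    rcases Representation.IsIrreducible.surjective_or_eq_zero f with hs | h0
    · exfalso
      have hXs : Function.Surjective X := by
        intro v
        obtain ⟨v', hv'⟩ := hs v
        have hv'' : Φ v' = v := hv'
        obtain ⟨u, hu⟩ := hΦv v'
        refine ⟨(O.card : F) • (X ^ (p - 2)) v' + (X ^ (p - 1)) u, ?_⟩
        rw [map_add, map_smul, ← Module.End.mul_apply, ← Module.End.mul_apply, ← pow_succ',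
          ← pow_succ', ← hv'', hu]
        have h1 : p - 2 + 1 = p - 1 := by have := hp.two_le; omega
        have h2 : p - 1 + 1 = p := by have := hp.two_le; omega
        rw [h1, h2]
      have hXs' : Function.Surjective (X ^ (p ^ n)) := by
        rw [Module.End.coe_pow]
        exact hXs.iterate _
      rw [hXq] at hXs'
      have hsub : ∀ v : V, v = 0 := by
        intro v
        obtain ⟨u, hu⟩ := hXs' v
        rw [← hu]; rfl
      apply hx1
      apply hfaith
      ext v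
      rw [hsub (ρ x v), hsub (ρ 1 v)]
    · exact congrArg (fun t : Representation.IntertwiningMap ρ ρ => t.toLinearMap) h0
  have hkey : ∀ v, ∃ u, (X ^ (p - 1)) v = (X ^ p) u := by
    intro v
    obtain ⟨u, hu⟩ := hΦv v
    rw [hΦ0, LinearMap.zero_apply] at hu
    refine ⟨-((O.card : F)⁻¹ • u), ?_⟩
    have h2 : (O.card : F) • (X ^ (p - 1)) v = -(X ^ p) u := by
      rw [eq_neg_iff_add_eq_zero]; exact hu.symm
    rw [map_neg, map_smul, ← smul_neg, ← h2, smul_smul, inv_mul_cancel₀ hcardO, one_smul]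
  have hiter : ∀ j v, ∃ u, (X ^ (p - 1)) v = (X ^ (p - 1 + j)) u := by
    intro j
    induction j with
    | zero => intro v; exact ⟨v, rfl⟩
    | succ j ih =>
      intro v
      obtain ⟨u, hu⟩ := ih v
      obtain ⟨u', hu'⟩ := hkey u
      refine ⟨u', ?_⟩
      rw [hu, add_comm (p - 1) j, pow_add, Module.End.mul_apply, hu', ← Module.End.mul_apply,
        ← pow_add]
      have h2 : j + p = p - 1 + (j + 1) := by have := hp.two_le; omega
      rw [h2]
  have hXp1 : X ^ (p - 1) = 0 := by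
    ext v
    obtain ⟨u, hu⟩ := hiter (p ^ n) v
    rw [hu, add_comm, pow_add, hXq, zero_mul]
    rfl
  have hXp : X ^ p = 0 := by
    have h2 : p = p - 1 + 1 := by have := hp.two_le; omega
    rw [h2, pow_succ, hXp1, zero_mul]
  have hρ : ρ (x ^ p) = ρ 1 := by
    have h1 := X_pow_p (p := p) ρ x
    rw [← hX, hXp] at h1
    rw [map_one]; exact (sub_eq_zero.1 h1.symm)
  have hxp := hfaith hρ
  have h5 := orderOf_dvd_of_pow_eq_one hxp
  rw [hx] at h5
  have h6 := Nat.le_of_dvd hp.pos h5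
  have h7 : p ^ 1 < p ^ n := Nat.pow_lt_pow_right hp.one_lt (by omega)
  rw [pow_one] at h7
  omega

end Cfsg.Agent.Lib.Helper77
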