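import Mathlib
import Cfsg.Agent.S0212

/-!
Elementary group theory towards: a finite group with a four-group all of whose involutions have
small centralizers, and with bounded Sylow 2-subgroup, has bounded order.  Part A: basic lemmas.
-/

set_option autoImplicit false
set_option linter.unusedSectionVars false

namespace Cfsg.Agent.Lib.Helper77

open Subgroup

section
variable {X : Type*} [Group X]

/-- `|C_{X/L}(xL)| ≤ |C_X(x)|`. -/
theorem card_centralizer_quot_le [Finite X] (L : Subgroup X) [L.Normal] (x : X) :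
    Nat.card (centralizer ({(x : X ⧸ L)} : Set (X ⧸ L))) ≤
      Nat.card (centralizer ({x} : Set X)) := by
  classical
  have h1 : Nat.card ((QuotientGroup.mk : X → X ⧸ L) ⁻¹'
      ((centralizer ({(x : X ⧸ L)} : Set (X ⧸ L)) : Subgroup (X ⧸ L)) : Set (X ⧸ L))) =
      Nat.card L * Nat.card (centralizer ({(x : X ⧸ L)} : Set (X ⧸ L))) :=
    QuotientGroup.card_preimage_mk L _
  obtain ⟨T, hT⟩ : ∃ T : Set X, T = (QuotientGroup.mk : X → X ⧸ L) ⁻¹'
      ((centralizer ({(x : X ⧸ L)} : Set (X ⧸ L)) : Subgroup (X ⧸ L)) : Set (X ⧸ L)) := ⟨_, rfl⟩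
  rw [← hT] at h1
  have hψ : ∀ y : T, y.1 * x * y.1⁻¹ * x⁻¹ ∈ L := by
    intro y
    have hy : (y.1 : X ⧸ L) ∈ centralizer ({(x : X ⧸ L)} : Set (X ⧸ L)) := by
      have h0 : y.1 ∈ T := y.2
      have h00 : y.1 ∈ (QuotientGroup.mk : X → X ⧸ L) ⁻¹'
        ((centralizer ({(x : X ⧸ L)} : Set (X ⧸ L)) : Subgroup (X ⧸ L)) : Set (X ⧸ L)) := hT ▸ h0
      exact h00
    rw [mem_centralizer_singleton_iff] at hy
    rw [← QuotientGroup.eq_one_iff]
    rw [QuotientGroup.mk_mul, QuotientGroup.mk_mul, QuotientGroup.mk_mul, QuotientGroup.mk_inv,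
      QuotientGroup.mk_inv, hy]
    group
  let ψ : T → L := fun y => ⟨_, hψ y⟩
  have h1T : (1 : X) ∈ T := by
    rw [hT]
    show ((1 : X) : X ⧸ L) ∈ centralizer ({(x : X ⧸ L)} : Set (X ⧸ L))
    rw [QuotientGroup.mk_one]
    exact one_mem _
  let rep : L → T := fun l => if h : ∃ y, ψ y = l then h.choose else ⟨1, h1T⟩
  have hrep : ∀ y, ψ (rep (ψ y)) = ψ y := by
    intro y
    have h : ∃ y', ψ y' = ψ y := ⟨y, rfl⟩
    simp only [rep, dif_pos h]
    exact h.choose_spec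
  have hmem : ∀ y : T, (rep (ψ y)).1⁻¹ * y.1 ∈ centralizer ({x} : Set X) := by
    intro y
    have h := congrArg Subtype.val (hrep y)
    simp only [ψ] at h
    have h2 : (rep (ψ y)).1 * x * (rep (ψ y)).1⁻¹ = y.1 * x * y.1⁻¹ := mul_right_cancel h
    rw [mem_centralizer_singleton_iff]
    have h3 : x * (rep (ψ y)).1⁻¹ * y.1 = (rep (ψ y)).1⁻¹ * (y.1 * x * y.1⁻¹) * y.1 := by
      rw [← h2]; group
    rw [mul_assoc, ← mul_assoc x, h3]
    group
  let f : T → L × centralizer ({x} : Set X) := fun y => (ψ y, ⟨_, hmem y⟩)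
  have hf : Function.Injective f := by
    intro y y' h
    have ha : ψ y = ψ y' := congrArg Prod.fst h
    have hb : (rep (ψ y)).1⁻¹ * y.1 = (rep (ψ y')).1⁻¹ * y'.1 :=
      congrArg (fun z => (z.2 : X)) h
    rw [ha] at hb
    exact Subtype.ext (mul_left_cancel hb)
  have h2 := Nat.card_le_card_of_injective f hf
  rw [Nat.card_prod, h1] at h2
  exact Nat.le_of_mul_le_mul_left h2 Nat.card_pos

/-- An involution in the coset `L v` (`L` of odd order) is conjugate to `v` under `L`. -/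
theorem conj_of_coset_invol (L : Subgroup X) [Finite L] (hodd : Odd (Nat.card L)) {v z : X}
    (hv : v * v = 1) (hz : z * z = 1) (hj : z * v ∈ L) : ∃ i ∈ L, z = i * v * i⁻¹ := by
  obtain ⟨j, hjdef⟩ : ∃ j, j = z * v := ⟨_, rfl⟩
  rw [← hjdef] at hj
  have hvi : v⁻¹ = v := inv_eq_of_mul_eq_one_left hv
  have hzi : z⁻¹ = z := inv_eq_of_mul_eq_one_left hz
  have hord : orderOf j ∣ Nat.card L := by
    have := orderOf_dvd_natCard (⟨j, hj⟩ : L)
    rwa [← Subgroup.orderOf_coe] at this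
  have hoj : Odd (orderOf j) := Odd.of_dvd_nat hodd hord
  obtain ⟨k, hk⟩ := hoj
  have hii : j ^ (k + 1) * j ^ (k + 1) = j := by
    rw [← pow_add]
    have : k + 1 + (k + 1) = orderOf j + 1 := by omega
    rw [this, pow_succ, pow_orderOf_eq_one, one_mul]
  have hconj : v * j * v⁻¹ = j⁻¹ := by
    rw [hjdef, mul_inv_rev, hvi, hzi]
    calc v * (z * v) * v = v * z * (v * v) := by group
      _ = v * z := by rw [hv, mul_one]
  have hconji : v * j ^ (k + 1) * v⁻¹ = (j ^ (k + 1))⁻¹ := by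
    rw [← conj_pow, hconj, inv_pow]
  refine ⟨j ^ (k + 1), pow_mem hj _, ?_⟩
  have h1 : v * (j ^ (k + 1))⁻¹ = j ^ (k + 1) * v := by
    have : v * j ^ (k + 1) = (j ^ (k + 1))⁻¹ * v := by
      rw [← hconji]; group
    calc v * (j ^ (k + 1))⁻¹ = j ^ (k + 1) * ((j ^ (k + 1))⁻¹ * v) * (j ^ (k + 1))⁻¹ := by group
      _ = j ^ (k + 1) * (v * j ^ (k + 1)) * (j ^ (k + 1))⁻¹ := by rw [this]
      _ = j ^ (k + 1) * v := by group
  calc z = z * (v * v) := by rw [hv, mul_one]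
    _ = j * v := by rw [hjdef]; group
    _ = j ^ (k + 1) * j ^ (k + 1) * v := by rw [hii]
    _ = j ^ (k + 1) * (j ^ (k + 1) * v) := by group
    _ = j ^ (k + 1) * (v * (j ^ (k + 1))⁻¹) := by rw [h1]
    _ = j ^ (k + 1) * v * (j ^ (k + 1))⁻¹ := by group

/-- `K = C_K(v₂) C_K(v₁v₂) C_K(v₁)` for a normal subgroup `K` of odd order and commuting
involutions `v₁, v₂`. -/
theorem mem_prod_centralizers (K : Subgroup X) [K.Normal] [Finite K] (hodd : Odd (Nat.card K))
    {v1 v2 : X} (h1 : v1 * v1 = 1) (h2 : v2 * v2 = 1) (hc : v1 * v2 = v2 * v1) (k : X)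
    (hk : k ∈ K) :
    ∃ x ∈ K ⊓ centralizer {v2}, ∃ y ∈ K ⊓ centralizer {v1 * v2}, ∃ w ∈ K ⊓ centralizer {v1},
      k = x * y * w := by
  obtain ⟨v3, hv3⟩ : ∃ v3, v3 = v1 * v2 := ⟨_, rfl⟩
  rw [← hv3]
  have h3 : v3 * v3 = 1 := by
    rw [hv3]
    calc v1 * v2 * (v1 * v2) = v1 * (v2 * v1) * v2 := by group
      _ = v1 * (v1 * v2) * v2 := by rw [hc]
      _ = (v1 * v1) * (v2 * v2) := by group
      _ = 1 := by rw [h1, h2, one_mul]
  have h13 : v1 * v3 = v3 * v1 := by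
    rw [hv3]
    calc v1 * (v1 * v2) = v1 * (v2 * v1) := by rw [hc]
      _ = v1 * v2 * v1 := by group
  have h23 : v2 * v3 = v3 * v2 := by
    rw [hv3]
    calc v2 * (v1 * v2) = (v2 * v1) * v2 := by group
      _ = v1 * v2 * v2 := by rw [hc]
  obtain ⟨t, ht⟩ : ∃ t, t = k⁻¹ * v2 * k := ⟨_, rfl⟩
  have htt : t * t = 1 := by
    rw [ht]
    calc k⁻¹ * v2 * k * (k⁻¹ * v2 * k) = k⁻¹ * (v2 * v2) * k := by group
      _ = 1 := by rw [h2]; group
  obtain ⟨q, hq⟩ : ∃ q, q = v1 * t := ⟨_, rfl⟩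
  have hk1 : (k : X ⧸ K) = 1 := (QuotientGroup.eq_one_iff k).2 hk
  have hqm : (q : X ⧸ K) = (v3 : X ⧸ K) := by
    rw [hq, ht, hv3]
    simp only [QuotientGroup.mk_mul, QuotientGroup.mk_inv, hk1, inv_one, one_mul, mul_one]
  have h3m : (v3 : X ⧸ K) * (v3 : X ⧸ K) = 1 := by
    rw [← QuotientGroup.mk_mul, h3, QuotientGroup.mk_one]
  have hqq : q * q ∈ K := by
    rw [← QuotientGroup.eq_one_iff, QuotientGroup.mk_mul, hqm, h3m]
  have hord : orderOf (q * q) ∣ Nat.card K := by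
    have := orderOf_dvd_natCard (⟨q * q, hqq⟩ : K)
    rwa [← Subgroup.orderOf_coe] at this
  obtain ⟨m, hm⟩ : Odd (orderOf (q * q)) := Odd.of_dvd_nat hodd hord
  obtain ⟨z, hz⟩ : ∃ z, z = q ^ (orderOf (q * q)) := ⟨_, rfl⟩
  have hzz : z * z = 1 := by
    rw [hz, ← (Commute.refl q).mul_pow]
    exact pow_orderOf_eq_one _
  have hzm : (z : X ⧸ K) = (v3 : X ⧸ K) := by
    rw [hz, QuotientGroup.mk_pow, hqm, hm, pow_succ, pow_mul, pow_two, h3m, one_pow, one_mul]
  have hzi : z⁻¹ = z := inv_eq_of_mul_eq_one_left hzz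
  have h1i : v1⁻¹ = v1 := inv_eq_of_mul_eq_one_left h1
  have hti : t⁻¹ = t := inv_eq_of_mul_eq_one_left htt
  have hs : v1 * z * v1⁻¹ = z := by
    have : v1 * q * v1⁻¹ = q⁻¹ := by
      rw [hq, mul_inv_rev, h1i, hti]
      calc v1 * (v1 * t) * v1 = (v1 * v1) * t * v1 := by group
        _ = t * v1 := by rw [h1, one_mul]
    rw [hz, ← conj_pow, this, inv_pow, ← hz, hzi]
  have htz : t * z * t⁻¹ = z := by
    have : t * q * t⁻¹ = q⁻¹ := by
      rw [hq, mul_inv_rev, h1i, hti]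
      calc t * (v1 * t) * t = t * v1 * (t * t) := by group
        _ = t * v1 := by rw [htt, mul_one]
    rw [hz, ← conj_pow, this, inv_pow, ← hz, hzi]
  -- first conjugation
  have hj1 : z * v3 ∈ K ⊓ centralizer {v1} := by
    refine ⟨?_, ?_⟩
    · show z * v3 ∈ K
      rw [← QuotientGroup.eq_one_iff, QuotientGroup.mk_mul, hzm, h3m]
    · show z * v3 ∈ centralizer {v1}
      rw [mem_centralizer_singleton_iff]
      have hs' : v1 * z = z * v1 := by
        calc v1 * z = (v1 * z * v1⁻¹) * v1 := by group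
          _ = z * v1 := by rw [hs]
      calc z * v3 * v1 = z * (v3 * v1) := by group
        _ = z * (v1 * v3) := by rw [h13]
        _ = (z * v1) * v3 := by group
        _ = (v1 * z) * v3 := by rw [hs']
        _ = v1 * (z * v3) := by group
  have hoddle : ∀ L : Subgroup X, L ≤ K → Odd (Nat.card L) := fun L hL =>
    Odd.of_dvd_nat hodd (Subgroup.card_dvd_of_le hL)
  have : Finite (K ⊓ centralizer {v1} : Subgroup X) :=
    Finite.of_injective _ (Subgroup.inclusion_injective (inf_le_left : K ⊓ centralizer {v1} ≤ K))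
  have : Finite (K ⊓ centralizer {v2} : Subgroup X) :=
    Finite.of_injective _ (Subgroup.inclusion_injective (inf_le_left : K ⊓ centralizer {v2} ≤ K))
  obtain ⟨i, hi, hzi'⟩ := conj_of_coset_invol (K ⊓ centralizer {v1}) (hoddle _ inf_le_left) h3 hzz hj1
  -- second conjugation
  obtain ⟨z', hz'⟩ : ∃ z', z' = k * z * k⁻¹ := ⟨_, rfl⟩
  have hzz' : z' * z' = 1 := by
    rw [hz']
    calc k * z * k⁻¹ * (k * z * k⁻¹) = k * (z * z) * k⁻¹ := by group
      _ = 1 := by rw [hzz]; group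
  have hj2 : z' * v3 ∈ K ⊓ centralizer {v2} := by
    refine ⟨?_, ?_⟩
    · show z' * v3 ∈ K
      rw [← QuotientGroup.eq_one_iff, hz']
      simp only [QuotientGroup.mk_mul, QuotientGroup.mk_inv, hk1, inv_one, one_mul, mul_one]
      rw [hzm, h3m]
    · show z' * v3 ∈ centralizer {v2}
      rw [mem_centralizer_singleton_iff]
      have hv2 : v2 = k * t * k⁻¹ := by rw [ht]; group
      have ht' : t * z = z * t := by
        calc t * z = (t * z * t⁻¹) * t := by group
          _ = z * t := by rw [htz]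
      have hs' : v2 * z' = z' * v2 := by
        rw [hz', hv2]
        calc k * t * k⁻¹ * (k * z * k⁻¹) = k * (t * z) * k⁻¹ := by group
          _ = k * (z * t) * k⁻¹ := by rw [ht']
          _ = k * z * k⁻¹ * (k * t * k⁻¹) := by group
      calc z' * v3 * v2 = z' * (v3 * v2) := by group
        _ = z' * (v2 * v3) := by rw [h23]
        _ = (z' * v2) * v3 := by group
        _ = (v2 * z') * v3 := by rw [hs']
        _ = v2 * (z' * v3) := by group
  obtain ⟨i', hi', hzi''⟩ := conj_of_coset_invol (K ⊓ centralizer {v2}) (hoddle _ inf_le_left) h3 hzz' hj2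
  refine ⟨i', hi', i'⁻¹ * k * i, ⟨?_, ?_⟩, i⁻¹, inv_mem hi, by group⟩
  · exact K.mul_mem (K.mul_mem (K.inv_mem hi'.1) hk) hi.1
  · show i'⁻¹ * k * i ∈ centralizer {v3}
    rw [mem_centralizer_singleton_iff]
    have h5 : k * (i * v3 * i⁻¹) * k⁻¹ = i' * v3 * i'⁻¹ := by
      rw [← hzi', ← hzi'', hz']
    calc i'⁻¹ * k * i * v3 = i'⁻¹ * (k * (i * v3 * i⁻¹) * k⁻¹) * k * i := by group
      _ = i'⁻¹ * (i' * v3 * i'⁻¹) * k * i := by rw [h5]
      _ = v3 * (i'⁻¹ * k * i) := by group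

/-- A normal subgroup of odd order is bounded by the centralizers of a four-group. -/
theorem card_odd_normal_le [Finite X] (K : Subgroup X) [K.Normal] (hodd : Odd (Nat.card K))
    {v1 v2 : X} (h1 : v1 * v1 = 1) (h2 : v2 * v2 = 1) (hc : v1 * v2 = v2 * v1) (c : ℕ)
    (hc1 : Nat.card (centralizer ({v1} : Set X)) ≤ c)
    (hc2 : Nat.card (centralizer ({v2} : Set X)) ≤ c)
    (hc3 : Nat.card (centralizer ({v1 * v2} : Set X)) ≤ c) : Nat.card K ≤ c * c * c := by
  let f : (centralizer ({v2} : Set X)) × (centralizer ({v1 * v2} : Set X)) ×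
      (centralizer ({v1} : Set X)) → X := fun p => p.1.1 * p.2.1.1 * p.2.2.1
  have hsub : (K : Set X) ⊆ Set.range f := by
    intro k hk
    obtain ⟨x, hx, y, hy, w, hw, rfl⟩ := mem_prod_centralizers K hodd h1 h2 hc k hk
    exact ⟨(⟨x, hx.2⟩, ⟨y, hy.2⟩, ⟨w, hw.2⟩), rfl⟩
  have h3 : Nat.card K ≤ Nat.card (Set.range f) := Nat.card_mono (Set.toFinite _) hsub
  have h4 : Nat.card (Set.range f) ≤ Nat.card ((centralizer ({v2} : Set X)) ×
      (centralizer ({v1 * v2} : Set X)) × (centralizer ({v1} : Set X))) :=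
    Nat.card_le_card_of_surjective _ Set.rangeFactorization_surjective
  rw [Nat.card_prod, Nat.card_prod] at h4
  calc Nat.card K ≤ _ := h3.trans h4
    _ ≤ c * (c * c) := Nat.mul_le_mul hc2 (Nat.mul_le_mul hc3 hc1)
    _ = c * c * c := by ring

end

end Cfsg.Agent.Lib.Helper77
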