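import Mathlib
import Cfsg.Agent.Lib.Helper77.FourBoundA

/-!
Part B: Brauer–Fowler small class, abelian normal subgroups, a small nontrivial normal subgroup.
-/

set_option autoImplicit false
set_option linter.unusedSectionVars false

namespace Cfsg.Agent.Lib.Helper77

open Subgroup

section
variable {X : Type*} [Group X]

/-- Brauer–Fowler: an involution with centralizer of order `n` forces a nonidentity element whose
class has size at most `2 n ^ 2`. -/
theorem exists_small_class [Finite X] (t : X) (ht : orderOf t = 2) :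
    ∃ x : X, x ≠ 1 ∧ (centralizer ({x} : Set X)).index ≤
      2 * (Nat.card (centralizer ({t} : Set X))) ^ 2 := by
  classical
  have : Fintype X := Fintype.ofFinite X
  obtain ⟨n, hn⟩ : ∃ n, n = Nat.card (Subgroup.centralizer ({t} : Set X)) := ⟨_, rfl⟩
  obtain ⟨m, hm⟩ : ∃ m, m = Nat.card {u : X // IsConj t u} := ⟨_, rfl⟩
  obtain ⟨N, hN⟩ : ∃ N, N = Nat.card X := ⟨_, rfl⟩
  rw [← hn]
  have hmn : m * n = N := by rw [hm, hn, hN]; exact Cfsg.Agent.S0213.card_class_mul t
  have hNpos : 0 < N := hN ▸ Nat.card_pos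
  have hnpos : 0 < n := hn ▸ Nat.card_pos
  have hmpos : 0 < m := Nat.pos_of_ne_zero (by rintro rfl; omega)
  have ht1 : t ≠ 1 := by
    rintro rfl
    rw [orderOf_one] at ht
    omega
  by_cases hm1 : m = 1
  · refine ⟨t, ht1, ?_⟩
    have h4 : Nat.card (Subgroup.centralizer ({t} : Set X)) *
        (Subgroup.centralizer ({t} : Set X)).index = N := by
      rw [hN]; exact Subgroup.card_mul_index _
    rw [← hn, ← hmn, hm1, one_mul] at h4
    have : (Subgroup.centralizer ({t} : Set X)).index = 1 := by
      have h5 : n * (Subgroup.centralizer ({t} : Set X)).index = n * 1 := by rw [h4, mul_one]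
      exact Nat.eq_of_mul_eq_mul_left hnpos h5
    rw [this]
    nlinarith
  have hm2 : 2 ≤ m := by omega
  by_contra hcon
  push Not at hcon
  have h1 := Cfsg.Agent.S0212.count_pairs t ht
  rw [← hm] at h1
  have h2 : ∀ x ∈ (Finset.univ : Finset X).erase 1,
      2 * n ^ 2 * Nat.card (Subgroup.centralizer ({x} : Set X)) ≤ N := by
    intro x hx
    have hx1 : x ≠ 1 := (Finset.mem_erase.mp hx).1
    have h3 := hcon x hx1
    have h4 : Nat.card (Subgroup.centralizer ({x} : Set X)) *
        (Subgroup.centralizer ({x} : Set X)).index = N := by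
      rw [hN]; exact Subgroup.card_mul_index _
    rw [← h4, mul_comm]
    exact Nat.mul_le_mul_left _ h3.le
  have h5 : 2 * n ^ 2 * ∑ x ∈ (Finset.univ : Finset X).erase 1,
      Nat.card (Subgroup.centralizer ({x} : Set X)) ≤ (N - 1) * N := by
    rw [Finset.mul_sum]
    have := Finset.sum_le_card_nsmul _ _ _ h2
    rw [Finset.card_erase_of_mem (Finset.mem_univ _), Finset.card_univ, ← Nat.card_eq_fintype_card,
      ← hN, smul_eq_mul] at this
    exact this
  have h6 : 2 * n ^ 2 * (m * m) ≤ 2 * n ^ 2 * m + (N - 1) * N := by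
    calc 2 * n ^ 2 * (m * m) ≤ 2 * n ^ 2 * (m + ∑ x ∈ (Finset.univ : Finset X).erase 1,
          Nat.card (Subgroup.centralizer ({x} : Set X))) := Nat.mul_le_mul_left _ h1
      _ = 2 * n ^ 2 * m + 2 * n ^ 2 * ∑ x ∈ (Finset.univ : Finset X).erase 1,
          Nat.card (Subgroup.centralizer ({x} : Set X)) := by ring
      _ ≤ _ := Nat.add_le_add_left h5 _
  have h7 : 2 * n ^ 2 * (m * m) = (2 * N) * N := by rw [← hmn]; ring
  have h8 : 2 * n ^ 2 * m = (2 * n) * N := by rw [← hmn]; ring
  rw [h7, h8, ← add_mul] at h6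
  have h9 := Nat.le_of_mul_le_mul_right h6 hNpos
  have h10 : 2 * n ≤ N := by rw [← hmn]; exact Nat.mul_le_mul_right _ hm2
  omega

/-- index of the normal core is at most the factorial of the index. -/
theorem index_normalCore_le [Finite X] (H : Subgroup X) :
    H.normalCore.index ≤ Nat.factorial H.index := by
  rw [Subgroup.normalCore_eq_ker, Subgroup.index_ker]
  have h := Nat.card_le_card_of_injective _
    (Subtype.val_injective : Function.Injective
      (Subtype.val : (MulAction.toPermHom X (X ⧸ H)).range → Equiv.Perm (X ⧸ H)))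
  rwa [Nat.card_perm] at h

/-- A commutative group with two involutory endomorphisms is bounded by their fixed points. -/
theorem card_le_of_comm_invol {A : Type*} [Group A] [Finite A] (hcomm : ∀ a b : A, a * b = b * a)
    (α β : A →* A) (hα : ∀ a, α (α a) = a) (hβ : ∀ a, β (β a) = a) (c : ℕ)
    (h1 : Nat.card {a // α a = a} ≤ c) (h2 : Nat.card {a // β a = a} ≤ c)
    (h3 : Nat.card {a // α (β a) = a} ≤ c) : Nat.card A ≤ c * c * c := by
  let f1 : A →* A := MonoidHom.mk' (fun a => a * α a) (by
    intro a b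
    rw [map_mul]
    calc a * b * (α a * α b) = a * (b * α a) * α b := by group
      _ = a * (α a * b) * α b := by rw [hcomm b]
      _ = a * α a * (b * α b) := by group)
  let f2 : A →* A := MonoidHom.mk' (fun a => a * β a) (by
    intro a b
    rw [map_mul]
    calc a * b * (β a * β b) = a * (b * β a) * β b := by group
      _ = a * (β a * b) * β b := by rw [hcomm b]
      _ = a * β a * (b * β b) := by group)
  have e1 : Nat.card f1.ker * Nat.card f1.range = Nat.card A := by
    rw [← Subgroup.index_ker]; exact Subgroup.card_mul_index _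
  let g : f1.ker →* A := f2.comp f1.ker.subtype
  have e2 : Nat.card g.ker * Nat.card g.range = Nat.card f1.ker := by
    rw [← Subgroup.index_ker]; exact Subgroup.card_mul_index _
  have r1 : Nat.card f1.range ≤ c := by
    refine le_trans ?_ h1
    apply Nat.card_le_card_of_injective
      (fun y : f1.range => (⟨y.1, by
        obtain ⟨a, ha⟩ := y.2
        rw [← ha]
        show α (a * α a) = a * α a
        rw [map_mul, hα, hcomm]⟩ : {a // α a = a}))
    intro y y' h
    exact Subtype.ext (congrArg (fun w : {a // α a = a} => w.1) h)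
  have r2 : Nat.card g.range ≤ c := by
    refine le_trans ?_ h2
    apply Nat.card_le_card_of_injective
      (fun y : g.range => (⟨y.1, by
        obtain ⟨a, ha⟩ := y.2
        rw [← ha]
        show β (a.1 * β a.1) = a.1 * β a.1
        rw [map_mul, hβ, hcomm]⟩ : {a // β a = a}))
    intro y y' h
    exact Subtype.ext (congrArg (fun w : {a // β a = a} => w.1) h)
  have r3 : Nat.card g.ker ≤ c := by
    refine le_trans ?_ h3
    apply Nat.card_le_card_of_injective
      (fun y : g.ker => (⟨y.1.1, by
        have ha : y.1.1 * α y.1.1 = 1 := y.1.2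
        have hb : y.1.1 * β y.1.1 = 1 := y.2
        have hb' : β y.1.1 = (y.1.1)⁻¹ := (inv_eq_of_mul_eq_one_right hb).symm
        have ha' : α y.1.1 = (y.1.1)⁻¹ := (inv_eq_of_mul_eq_one_right ha).symm
        rw [hb', map_inv, ha', inv_inv]⟩ : {a // α (β a) = a}))
    intro y y' h
    exact Subtype.ext (Subtype.ext (congrArg (fun w : {a // α (β a) = a} => w.1) h))
  rw [← e1, ← e2]
  exact Nat.mul_le_mul (Nat.mul_le_mul r3 r2) r1

/-- An abelian normal subgroup is bounded by the centralizers of a four-group. -/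
theorem card_comm_normal_le [Finite X] (U : Subgroup X) [hU : U.Normal]
    (hcomm : ∀ a ∈ U, ∀ b ∈ U, a * b = b * a)
    {v1 v2 : X} (h1 : v1 * v1 = 1) (h2 : v2 * v2 = 1) (c : ℕ)
    (hc1 : Nat.card (centralizer ({v1} : Set X)) ≤ c)
    (hc2 : Nat.card (centralizer ({v2} : Set X)) ≤ c)
    (hc3 : Nat.card (centralizer ({v1 * v2} : Set X)) ≤ c) : Nat.card U ≤ c * c * c := by
  have h1i : v1⁻¹ = v1 := inv_eq_of_mul_eq_one_left h1
  have h2i : v2⁻¹ = v2 := inv_eq_of_mul_eq_one_left h2
  apply card_le_of_comm_invol (A := U) (fun a b => Subtype.ext (hcomm a.1 a.2 b.1 b.2))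
    (MulAut.conjNormal v1 : MulAut U).toMonoidHom (MulAut.conjNormal v2 : MulAut U).toMonoidHom
  · intro a
    apply Subtype.ext
    show v1 * (v1 * a.1 * v1⁻¹) * v1⁻¹ = a.1
    rw [h1i]
    calc v1 * (v1 * a.1 * v1) * v1 = (v1 * v1) * a.1 * (v1 * v1) := by group
      _ = a.1 := by rw [h1, one_mul, mul_one]
  · intro a
    apply Subtype.ext
    show v2 * (v2 * a.1 * v2⁻¹) * v2⁻¹ = a.1
    rw [h2i]
    calc v2 * (v2 * a.1 * v2) * v2 = (v2 * v2) * a.1 * (v2 * v2) := by group
      _ = a.1 := by rw [h2, one_mul, mul_one]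
  · refine le_trans ?_ hc1
    apply Nat.card_le_card_of_injective
      (fun y : {a : U // (MulAut.conjNormal v1 : MulAut U).toMonoidHom a = a} =>
        (⟨y.1.1, by
          have h : v1 * y.1.1 * v1⁻¹ = y.1.1 := congrArg Subtype.val y.2
          rw [mem_centralizer_singleton_iff]
          calc y.1.1 * v1 = (v1 * y.1.1 * v1⁻¹) * v1 := by rw [h]
            _ = v1 * y.1.1 := by group⟩ : centralizer ({v1} : Set X)))
    intro y y' h
    exact Subtype.ext (Subtype.ext (congrArg (fun w : centralizer ({v1} : Set X) => w.1) h))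
  · refine le_trans ?_ hc2
    apply Nat.card_le_card_of_injective
      (fun y : {a : U // (MulAut.conjNormal v2 : MulAut U).toMonoidHom a = a} =>
        (⟨y.1.1, by
          have h : v2 * y.1.1 * v2⁻¹ = y.1.1 := congrArg Subtype.val y.2
          rw [mem_centralizer_singleton_iff]
          calc y.1.1 * v2 = (v2 * y.1.1 * v2⁻¹) * v2 := by rw [h]
            _ = v2 * y.1.1 := by group⟩ : centralizer ({v2} : Set X)))
    intro y y' h
    exact Subtype.ext (Subtype.ext (congrArg (fun w : centralizer ({v2} : Set X) => w.1) h))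
  · refine le_trans ?_ hc3
    apply Nat.card_le_card_of_injective
      (fun y : {a : U // (MulAut.conjNormal v1 : MulAut U).toMonoidHom
          ((MulAut.conjNormal v2 : MulAut U).toMonoidHom a) = a} =>
        (⟨y.1.1, by
          have h : v1 * (v2 * y.1.1 * v2⁻¹) * v1⁻¹ = y.1.1 := congrArg Subtype.val y.2
          rw [mem_centralizer_singleton_iff]
          calc y.1.1 * (v1 * v2) = (v1 * (v2 * y.1.1 * v2⁻¹) * v1⁻¹) * (v1 * v2) := by rw [h]
            _ = v1 * v2 * y.1.1 := by group⟩ : centralizer ({v1 * v2} : Set X)))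
    intro y y' h
    exact Subtype.ext (Subtype.ext (congrArg (fun w : centralizer ({v1 * v2} : Set X) => w.1) h))

/-- A nontrivial normal subgroup of bounded order. -/
theorem exists_small_normal [Finite X] {v1 v2 : X} (hne : v1 ≠ 1) (h1 : v1 * v1 = 1)
    (h2 : v2 * v2 = 1) (c : ℕ)
    (hc1 : Nat.card (centralizer ({v1} : Set X)) ≤ c)
    (hc2 : Nat.card (centralizer ({v2} : Set X)) ≤ c)
    (hc3 : Nat.card (centralizer ({v1 * v2} : Set X)) ≤ c) :
    ∃ W : Subgroup X, W.Normal ∧ W ≠ ⊥ ∧ Nat.card W ≤ c * c * c * Nat.factorial (2 * c ^ 2) := by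
  have ho : orderOf v1 = 2 := orderOf_eq_prime (by rw [pow_two, h1]) hne
  obtain ⟨w, hw1, hw⟩ := exists_small_class v1 ho
  obtain ⟨A, hA⟩ : ∃ A, A = (centralizer ({w} : Set X)).normalCore := ⟨_, rfl⟩
  have hAn : A.Normal := by rw [hA]; infer_instance
  have hAle : A ≤ centralizer ({w} : Set X) := by rw [hA]; exact normalCore_le _
  have hAi : A.index ≤ Nat.factorial (2 * c ^ 2) := by
    rw [hA]
    refine (index_normalCore_le _).trans (Nat.factorial_le (hw.trans ?_))
    exact Nat.mul_le_mul_left _ (Nat.pow_le_pow_left hc1 2)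
  refine ⟨centralizer (A : Set X), inferInstance, ?_, ?_⟩
  · intro hbot
    have hwm : w ∈ centralizer (A : Set X) := by
      rw [mem_centralizer_iff]
      intro a ha
      exact mem_centralizer_singleton_iff.1 (hAle ha)
    rw [hbot, mem_bot] at hwm
    exact hw1 hwm
  · have e1 : Nat.card (centralizer (A : Set X) ⊓ A : Subgroup X) *
        (centralizer (A : Set X) ⊓ A).relIndex (centralizer (A : Set X)) =
        Nat.card (centralizer (A : Set X)) := by
      rw [← relIndex_bot_left, ← relIndex_bot_left, relIndex_mul_relIndex _ _ _ bot_le inf_le_left]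
    rw [inf_relIndex_left] at e1
    have e2 : A.relIndex (centralizer (A : Set X)) ≤ Nat.factorial (2 * c ^ 2) :=
      (Nat.le_of_dvd (Nat.pos_of_ne_zero A.index_ne_zero_of_finite)
        (relIndex_dvd_index_of_normal A _)).trans hAi
    have e3 : Nat.card (centralizer (A : Set X) ⊓ A : Subgroup X) ≤ c * c * c := by
      apply card_comm_normal_le _ _ h1 h2 c hc1 hc2 hc3
      intro a ha b hb
      exact (mem_centralizer_iff.1 hb.1 a ha.2)
    rw [← e1]
    exact Nat.mul_le_mul e3 e2

end

end Cfsg.Agent.Lib.Helper77
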