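import Mathlib
import Cfsg.Agent.Lib.Helper77.FourBoundB
import Cfsg.Agent.Lib.Helper80.PSolv

/-!
Part C: a finite group with bounded Sylow 2-subgroup containing a four-group all of whose
involutions have centralizers of order at most `c` has bounded order.
-/

set_option autoImplicit false
set_option linter.unusedSectionVars false

namespace Cfsg.Agent.Lib.Helper77

open Subgroup

universe u

/-- `X` contains a four-group whose involutions have centralizers of order `≤ c`, and the 2-part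
of the order of `X` is at most `2 ^ a`. -/
def FourHyp (X : Type*) [Group X] (a c : ℕ) : Prop :=
  ∃ v1 v2 : X, v1 ≠ 1 ∧ v2 ≠ 1 ∧ v1 ≠ v2 ∧ v1 * v1 = 1 ∧ v2 * v2 = 1 ∧ v1 * v2 = v2 * v1 ∧
    Nat.card (centralizer ({v1} : Set X)) ≤ c ∧ Nat.card (centralizer ({v2} : Set X)) ≤ c ∧
    Nat.card (centralizer ({v1 * v2} : Set X)) ≤ c ∧ (Nat.card X).factorization 2 ≤ a

section
variable {X : Type*} [Group X]

theorem FourHyp.mono {a b c : ℕ} (h : FourHyp X a c) (hab : a ≤ b) : FourHyp X b c := by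
  obtain ⟨v1, v2, h1, h2, h3, h4, h5, h6, h7, h8, h9, h10⟩ := h
  exact ⟨v1, v2, h1, h2, h3, h4, h5, h6, h7, h8, h9, h10.trans hab⟩

theorem card_le_of_mem_normal [Finite X] (L : Subgroup X) [hL : L.Normal] {v : X} (hv : v ∈ L)
    (c : ℕ) (hc : Nat.card (centralizer ({v} : Set X)) ≤ c) : Nat.card X ≤ c * Nat.card L := by
  rw [← Cfsg.Agent.S0213.card_class_mul v, mul_comm]
  apply Nat.mul_le_mul hc
  apply Nat.card_le_card_of_injective
    (fun w : {w : X // IsConj v w} => (⟨w.1, by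
      obtain ⟨b, hb⟩ := isConj_iff.mp w.2
      rw [← hb]
      exact hL.conj_mem v hv b⟩ : L))
  intro w w' h
  exact Subtype.ext (congrArg (fun z : L => z.1) h)

theorem FourHyp.quot [Finite X] {a c : ℕ} (h : FourHyp X a c) (L : Subgroup X) [L.Normal] :
    Nat.card X ≤ c * Nat.card L ∨ FourHyp (X ⧸ L) (a - (Nat.card L).factorization 2) c := by
  obtain ⟨v1, v2, h1, h2, h3, h4, h5, h6, h7, h8, h9, h10⟩ := h
  by_cases m1 : v1 ∈ L
  · exact Or.inl (card_le_of_mem_normal L m1 c h7)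
  by_cases m2 : v2 ∈ L
  · exact Or.inl (card_le_of_mem_normal L m2 c h8)
  by_cases m3 : v1 * v2 ∈ L
  · exact Or.inl (card_le_of_mem_normal L m3 c h9)
  right
  refine ⟨(v1 : X ⧸ L), (v2 : X ⧸ L), ?_, ?_, ?_, ?_, ?_, ?_, ?_, ?_, ?_, ?_⟩
  · intro h; exact m1 ((QuotientGroup.eq_one_iff v1).1 h)
  · intro h; exact m2 ((QuotientGroup.eq_one_iff v2).1 h)
  · intro h
    apply m3
    rw [← QuotientGroup.eq_one_iff, QuotientGroup.mk_mul, h, ← QuotientGroup.mk_mul, h5,
      QuotientGroup.mk_one]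
  · rw [← QuotientGroup.mk_mul, h4, QuotientGroup.mk_one]
  · rw [← QuotientGroup.mk_mul, h5, QuotientGroup.mk_one]
  · rw [← QuotientGroup.mk_mul, h6, QuotientGroup.mk_mul]
  · exact (card_centralizer_quot_le L v1).trans h7
  · exact (card_centralizer_quot_le L v2).trans h8
  · rw [← QuotientGroup.mk_mul]
    exact (card_centralizer_quot_le L (v1 * v2)).trans h9
  · have e : Nat.card X = Nat.card (X ⧸ L) * Nat.card L :=
      Subgroup.card_eq_card_quotient_mul_card_subgroup L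
    rw [e, Nat.factorization_mul Nat.card_pos.ne' Nat.card_pos.ne'] at h10
    simp only [Finsupp.coe_add, Pi.add_apply] at h10
    omega

theorem FourHyp.pos [Finite X] {a c : ℕ} (h : FourHyp X a c) : 1 ≤ a := by
  obtain ⟨v1, v2, h1, h2, h3, h4, h5, h6, h7, h8, h9, h10⟩ := h
  have ho : orderOf v1 = 2 := orderOf_eq_prime (by rw [pow_two, h4]) h1
  have hd : 2 ∣ Nat.card X := ho ▸ orderOf_dvd_natCard v1
  have := (Nat.prime_two.dvd_iff_one_le_factorization Nat.card_pos.ne').1 hd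
  omega

end

/-- **Claim A.** -/
theorem four_bound (c : ℕ) : ∀ a : ℕ, ∃ N : ℕ, ∀ (X : Type u) [Group X] [Finite X],
    FourHyp X a c → Nat.card X ≤ N := by
  intro a
  induction a with
  | zero =>
    refine ⟨0, ?_⟩
    intro X _ _ h
    have := h.pos
    omega
  | succ a ih =>
    obtain ⟨N, hN⟩ := ih
    obtain ⟨m, hm⟩ : ∃ m, m = c * c * c * Nat.factorial (2 * c ^ 2) := ⟨_, rfl⟩
    refine ⟨c * (c * c * c) + (c * m + N * m) * (c * c * c), ?_⟩
    intro X _ _ h
    obtain ⟨K, hK⟩ : ∃ K, K = Cfsg.pPrimeCore 2 X := ⟨_, rfl⟩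
    have hKn : K.Normal := by rw [hK]; infer_instance
    have hKodd : Odd (Nat.card K) := by
      rw [hK]
      exact (Nat.coprime_two_right.1 (Cfsg.Agent.Lib.Helper80.pPrimeCore_spec 2).2)
    have hKc : Nat.card K ≤ c * c * c := by
      obtain ⟨v1, v2, h1, h2, h3, h4, h5, h6, h7, h8, h9, h10⟩ := h
      exact card_odd_normal_le K hKodd h4 h5 h6 c h7 h8 h9
    rcases h.quot K with h1 | h1
    · calc Nat.card X ≤ c * Nat.card K := h1
        _ ≤ c * (c * c * c) := Nat.mul_le_mul_left _ hKc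
        _ ≤ _ := Nat.le_add_right _ _
    have h2 : FourHyp (X ⧸ K) (a + 1) c := h1.mono (Nat.sub_le _ _)
    have hbot : Cfsg.pPrimeCore 2 (X ⧸ K) = ⊥ := by
      subst hK
      exact Cfsg.Agent.Lib.Helper80.pPrimeCore_quotient_eq_bot
    obtain ⟨W, hWn, hWne, hWc⟩ : ∃ W : Subgroup (X ⧸ K), W.Normal ∧ W ≠ ⊥ ∧ Nat.card W ≤ m := by
      obtain ⟨v1, v2, g1, g2, g3, g4, g5, g6, g7, g8, g9, g10⟩ := h2
      rw [hm]
      exact exists_small_normal g1 g4 g5 c g7 g8 g9
    have hWeven : 1 ≤ (Nat.card W).factorization 2 := by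
      rw [← Nat.prime_two.dvd_iff_one_le_factorization Nat.card_pos.ne']
      by_contra hnd
      apply hWne
      rw [eq_bot_iff, ← hbot]
      apply Cfsg.Agent.Lib.Helper80.le_pPrimeCore hWn
      exact ((Nat.Prime.coprime_iff_not_dvd Nat.prime_two).2 hnd).symm
    have hX1 : Nat.card (X ⧸ K) ≤ c * m + N * m := by
      rcases h2.quot W with h3 | h3
      · calc Nat.card (X ⧸ K) ≤ c * Nat.card W := h3
          _ ≤ c * m := Nat.mul_le_mul_left _ hWc
          _ ≤ _ := Nat.le_add_right _ _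
      · have h4 : FourHyp ((X ⧸ K) ⧸ W) a c := h3.mono (by omega)
        have h5 := hN _ h4
        rw [Subgroup.card_eq_card_quotient_mul_card_subgroup W]
        calc Nat.card ((X ⧸ K) ⧸ W) * Nat.card W ≤ N * m := Nat.mul_le_mul h5 hWc
          _ ≤ _ := Nat.le_add_left _ _
    rw [Subgroup.card_eq_card_quotient_mul_card_subgroup K]
    calc Nat.card (X ⧸ K) * Nat.card K ≤ (c * m + N * m) * (c * c * c) := Nat.mul_le_mul hX1 hKc
      _ ≤ _ := Nat.le_add_left _ _

end Cfsg.Agent.Lib.Helper77
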