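import Mathlib
import Cfsg.Agent.Lib.Helper77.FourBoundC
import Cfsg.Agent.Lib.Helper82.Central
import Cfsg.Agent.Lib.Helper81.BlockProj
import Cfsg.Agent.S4717
import Cfsg.Agent.S4718

/-!
Groups of 2-deficiency class `r` containing an elementary abelian subgroup of order `2^(r+1)`
have order bounded in terms of the Sylow 2-subgroup.
-/

set_option autoImplicit false
set_option linter.unusedSectionVars false

namespace Cfsg.Agent.Lib.Helper77

open Subgroup Cfsg

universe u

/-- no non-principal 2-block of defect `≥ r`. -/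
def DefClass (M : Ideal AlgInt) (G : Type*) [Group G] (r : ℕ) : Prop :=
  ∀ B : Set (IrrCharacter G), IsPBlock M B → B ≠ principalBlock M G → blockDefect 2 B < r

section
variable {G : Type*} [Group G]

theorem le_blockDefect_of_central [Finite G] {M : Ideal AlgInt} (hM : IsPModular 2 M)
    (Z : Subgroup G) (hZ : Z ≤ center G) (r : ℕ) (hr : Nat.card Z = 2 ^ r)
    (B : Set (IrrCharacter G)) (hB : IsPBlock M B) : r ≤ blockDefect 2 B := by
  obtain ⟨χ, rfl⟩ := hB
  have hχ : χ ∈ blockOf M (χ : G → ℂ) := Cfsg.Agent.Lib.Helper81.mem_blockOf_self hM χ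
  have h1 : charDegree (χ : G → ℂ) ∣ (center G).index :=
    Cfsg.Agent.Lib.Helper82.isIrr_charDegree_dvd_index_center χ.2
  have h2 : 2 ^ r ∣ Nat.card (center G) := hr ▸ Subgroup.card_dvd_of_le hZ
  have h3 : 2 ^ r * charDegree (χ : G → ℂ) ∣ Nat.card G := by
    rw [← Subgroup.card_mul_index (center G)]
    exact Nat.mul_dvd_mul h2 h1
  have hd0 : charDegree (χ : G → ℂ) ≠ 0 := by
    intro h0
    rw [h0, zero_dvd_iff] at h1
    exact (center G).index_ne_zero_of_finite h1
  have h4 := (Nat.factorization_le_iff_dvd (Nat.mul_ne_zero (pow_ne_zero r two_ne_zero) hd0)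
    Nat.card_pos.ne').2 h3 2
  rw [Nat.factorization_mul (pow_ne_zero r two_ne_zero) hd0] at h4
  simp only [Finsupp.coe_add, Pi.add_apply, Nat.factorization_pow, Finsupp.coe_smul,
    Pi.smul_apply, smul_eq_mul, Nat.prime_two.factorization_self, mul_one] at h4
  have h5 : sInf ((fun ψ : IrrCharacter G => (charDegree (ψ : G → ℂ)).factorization 2) ''
      (blockOf M (χ : G → ℂ))) ≤ (charDegree (χ : G → ℂ)).factorization 2 :=
    Nat.sInf_le ⟨χ, hχ, rfl⟩
  unfold blockDefect
  omega

theorem card_sup_zpowers_of_central [Finite G] (Z : Subgroup G) (hZ : Z ≤ center G) (j : ℕ)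
    (hj : Nat.card Z = 2 ^ j) {v : G} (hv : v * v = 1) (hvZ : v ∉ Z) :
    Nat.card (Z ⊔ zpowers v : Subgroup G) = 2 ^ (j + 1) := by
  have hZn : Z.Normal := by
    refine ⟨fun z hz g => ?_⟩
    have : g * z = z * g := mem_center_iff.1 (hZ hz) g
    rw [this, mul_inv_cancel_right]
    exact hz
  have hv1 : v ≠ 1 := fun h => hvZ (h ▸ one_mem Z)
  have ho : orderOf v = 2 := orderOf_eq_prime (by rw [pow_two, hv]) hv1
  have hc : Nat.card (zpowers v) = 2 := by rw [Nat.card_zpowers, ho]
  have h1 := Cfsg.Agent.Lib.Helper80.card_sup_mul_card_inf (zpowers v) Z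
  have h2 : Nat.card (zpowers v ⊓ Z : Subgroup G) = 1 := by
    have hd : Nat.card (zpowers v ⊓ Z : Subgroup G) ∣ 2 :=
      hc ▸ Subgroup.card_dvd_of_le inf_le_left
    rcases (Nat.dvd_prime Nat.prime_two).1 hd with h | h
    · exact h
    · exfalso
      have : zpowers v ⊓ Z = zpowers v :=
        Subgroup.eq_of_le_of_card_ge inf_le_left (by rw [h, hc])
      apply hvZ
      have hm : v ∈ zpowers v ⊓ Z := by rw [this]; exact mem_zpowers v
      exact hm.2
  rw [h2, mul_one, hc, hj] at h1
  rw [sup_comm, h1, pow_succ, mul_comm]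

end

theorem defclass_bound (n : ℕ) : ∀ a : ℕ, ∃ N : ℕ, ∀ (G : Type u) [Group G] [Finite G]
    (M : Ideal AlgInt) (r j : ℕ) (Z E : Subgroup G), IsPModular 2 M →
    (Nat.card G).factorization 2 ≤ a → DefClass M G r → Z ≤ center G → Z ≤ E →
    (∀ x ∈ E, ∀ y ∈ E, x * y = y * x) → (∀ x ∈ E, x * x = 1) → Nat.card Z = 2 ^ j →
    Nat.card E = 2 ^ (r + 1) → j + n = r → Nat.card G ≤ N := by
  induction n with
  | zero =>
    intro a
    have h := fun a' => Cfsg.Agent.S4718.result.{u} 2 a'
    choose F hF using h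
    refine ⟨∑ i ∈ Finset.range (a + 1), F i, ?_⟩
    intro G _ _ M r j Z E hM ha hdef hZc hZE hcomm hexp hZ hE hj
    have hjr : j = r := by omega
    subst hjr
    have h1 := hF _ G M hM rfl (by
      intro B hB
      by_contra hne
      have h2 := hdef B hB hne
      have h3 := le_blockDefect_of_central hM Z hZc j hZ B hB
      omega)
    refine h1.trans ?_
    exact Finset.single_le_sum (f := F) (fun i _ => Nat.zero_le _)
      (Finset.mem_range.2 (Nat.lt_succ_of_le ha))
  | succ n ih =>
    intro a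
    obtain ⟨c, hc⟩ := ih a
    obtain ⟨N, hN⟩ := four_bound.{u} c a
    refine ⟨N, ?_⟩
    intro G _ _ M r j Z E hM ha hdef hZc hZE hcomm hexp hZ hE hj
    apply hN
    -- centralizers of elements of E outside Z are bounded
    have hcent : ∀ v ∈ E, v ∉ Z → Nat.card (centralizer ({v} : Set G)) ≤ c := by
      intro v hvE hvZ
      have hvv := hexp v hvE
      have hv1 : v ≠ 1 := fun h => hvZ (h ▸ one_mem Z)
      have ho : orderOf v = 2 := orderOf_eq_prime (by rw [pow_two, hvv]) hv1
      have hEH : E ≤ centralizer ({v} : Set G) := by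
        intro e he
        rw [mem_centralizer_singleton_iff]
        exact hcomm e he v hvE
      have hZ1E : Z ⊔ zpowers v ≤ E := sup_le hZE ((zpowers_le).2 hvE)
      apply hc (centralizer ({v} : Set G)) M r (j + 1)
        ((Z ⊔ zpowers v).subgroupOf (centralizer ({v} : Set G)))
        (E.subgroupOf (centralizer ({v} : Set G))) hM
      · refine le_trans ?_ ha
        exact (Nat.factorization_le_iff_dvd Nat.card_pos.ne' Nat.card_pos.ne').2
          (Subgroup.card_subgroup_dvd_card _) 2
      · exact (Cfsg.Agent.S4717.result 2 M hM r).1 hdef v ⟨1, by rw [ho, pow_one]⟩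
      · intro x hx
        rw [mem_subgroupOf] at hx
        have hle : Z ⊔ zpowers v ≤ centralizer ((centralizer ({v} : Set G) : Subgroup G) : Set G) := by
          apply sup_le
          · exact hZc.trans (center_le_centralizer _)
          · rw [zpowers_le, mem_centralizer_iff]
            intro h hh
            exact mem_centralizer_singleton_iff.1 hh
        rw [mem_center_iff]
        intro g
        apply Subtype.ext
        exact mem_centralizer_iff.1 (hle hx) g.1 g.2
      · intro x hx
        rw [mem_subgroupOf] at hx ⊢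
        exact hZ1E hx
      · intro x hx y hy
        rw [mem_subgroupOf] at hx hy
        exact Subtype.ext (hcomm _ hx _ hy)
      · intro x hx
        rw [mem_subgroupOf] at hx
        exact Subtype.ext (hexp _ hx)
      · rw [Nat.card_congr (subgroupOfEquivOfLe (hZ1E.trans hEH)).toEquiv]
        exact card_sup_zpowers_of_central Z hZc j hZ hvv hvZ
      · rw [Nat.card_congr (subgroupOfEquivOfLe hEH).toEquiv]
        exact hE
      · omega
    -- choose v1, v2
    have hlt1 : Z < E := by
      refine lt_of_le_of_ne hZE ?_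
      intro h
      rw [h, hE] at hZ
      have := Nat.pow_right_injective (le_refl 2) hZ
      omega
    obtain ⟨v1, hv1E, hv1Z⟩ := SetLike.exists_of_lt hlt1
    have hZ1 := card_sup_zpowers_of_central Z hZc j hZ (hexp v1 hv1E) hv1Z
    have hlt2 : Z ⊔ zpowers v1 < E := by
      refine lt_of_le_of_ne (sup_le hZE ((zpowers_le).2 hv1E)) ?_
      intro h
      rw [h, hE] at hZ1
      have := Nat.pow_right_injective (le_refl 2) hZ1
      omega
    obtain ⟨v2, hv2E, hv2Z⟩ := SetLike.exists_of_lt hlt2
    have hv1m : v1 ∈ Z ⊔ zpowers v1 := (le_sup_right : zpowers v1 ≤ _) (mem_zpowers v1)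
    have hv2Z' : v2 ∉ Z := fun h => hv2Z ((le_sup_left : Z ≤ _) h)
    have hv12Z : v1 * v2 ∉ Z := by
      intro h
      apply hv2Z
      have : v2 = v1⁻¹ * (v1 * v2) := by group
      rw [this]
      exact mul_mem (inv_mem hv1m) ((le_sup_left : Z ≤ _) h)
    refine ⟨v1, v2, fun h => hv1Z (h ▸ one_mem Z), fun h => hv2Z' (h ▸ one_mem Z), ?_,
      hexp v1 hv1E, hexp v2 hv2E, hcomm v1 hv1E v2 hv2E, hcent v1 hv1E hv1Z, hcent v2 hv2E hv2Z',
      hcent _ (mul_mem hv1E hv2E) hv12Z, ha⟩
    intro h
    exact hv2Z (h ▸ hv1m)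

end Cfsg.Agent.Lib.Helper77
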